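import Cfsg.Agent.Lib.ChevCov.Act

/-!
# The Bruhat decomposition of Steinberg's presented group; the kernel of the map to the Chevalley group

`H̄` is generated by the `h̄_i(t)`; every element of `Ḡ` is `h u ẇ u'`; an element `ẇ` which maps into the diagonal subgroup
lies in `H̄` (a deletion argument, which needs no Coxeter relations); and so the kernel of `theta` lies in `H̄`.
-/

set_option autoImplicit false

namespace Cfsg.Agent.Lib.ChevCov

open Cfsg.Lie Matrix Cfsg.Agent.Lib.Chev
open Cfsg.Agent.Lib.ChevPres (NegOK negTerm negWord commWord_neg neg_ne_of WOK PresOK)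

section Defs

variable (D : ChevalleyDatum) (K : Type*) [Field K]

/-- `H̄`. -/
def Hb : Subgroup (D.SteinbergCover K) :=
  Subgroup.closure {h | ∃ (i : ℕ) (t : K), i < D.rank ∧ t ≠ 0 ∧ h = hb D K (D.simple i) t}

/-- `n̄_i`. -/
noncomputable def nbS (i : ℕ) : D.SteinbergCover K := nb D K (D.simple i) 1

/-- The product of the `n̄_i`. -/
noncomputable def wordNb (L : List ℕ) : D.SteinbergCover K := (L.map (nbS D K)).prod

theorem wordNb_nil : wordNb D K [] = 1 := rfl

theorem wordNb_cons (i : ℕ) (L : List ℕ) : wordNb D K (i :: L) = nbS D K i * wordNb D K L := by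
  simp [wordNb]

theorem wordNb_append (L L' : List ℕ) : wordNb D K (L ++ L') = wordNb D K L * wordNb D K L' := by
  simp [wordNb]

end Defs

variable {K : Type*} [Field K]
variable {T : Tabs} {X : Extra} {R : RootTab} {D : ChevalleyDatum} (hF : Full T X R D) (hP : PresOK X D)

theorem hb_mem_Hb {i : ℕ} (hi : i < D.rank) {t : K} (ht : t ≠ 0) : hb D K (D.simple i) t ∈ Hb D K :=
  Subgroup.subset_closure ⟨i, t, hi, ht, rfl⟩

include hF hP

/-- Elements of `H̄` act on root elements by scalars. -/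
theorem exists_act_of_mem_Hb {h : D.SteinbergCover K} (hh : h ∈ Hb D K) : ∃ u, RootActB hF h 1 u := by
  unfold Hb at hh
  induction hh using Subgroup.closure_induction with
  | mem x hx =>
    obtain ⟨i, t, hi, ht, rfl⟩ := hx
    have := rootActB_hb hF hP hi (Units.mk0 t ht)
    exact ⟨_, this⟩
  | one => exact ⟨1, rootActB_one hF⟩
  | mul x y _ _ hx hy =>
    obtain ⟨u, hu⟩ := hx
    obtain ⟨v, hv⟩ := hy
    have := hu.mul hv
    rw [one_mul] at this
    exact ⟨_, this⟩
  | inv x _ hx =>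
    obtain ⟨u, hu⟩ := hx
    have := hu.inv
    rw [inv_one] at this
    exact ⟨_, this⟩

omit hF hP in
/-- The generators of `Ū` -/
theorem y_mem_Ub {s : ℕ} (hs : s < D.nroots) (h : R.N ≤ s) (t : K) : D.scGen K s t ∈ Ub R D K :=
  y_mem_rootClosureB ⟨h, hs⟩ t

omit hF hP in
theorem rootAct_mem_closure {Q : ℕ → Prop} (hF : Full T X R D) {g : D.SteinbergCover K} {σ u} (hg : RootActB hF g σ u)
    (hQ : ∀ s : Fin D.nroots, Q s → Q (σ s)) (hQ' : ∀ s, Q s → s < D.nroots) {x : D.SteinbergCover K}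
    (hx : x ∈ rootClosureB D K Q) : g * x * g⁻¹ ∈ rootClosureB D K Q := by
  unfold rootClosureB at hx
  induction hx using Subgroup.closure_induction with
  | mem x hx =>
    obtain ⟨s, t, hs, rfl⟩ := hx
    have h1 := hg.conj ⟨s, hQ' s hs⟩ t
    simp only at h1
    rw [h1]
    exact y_mem_rootClosureB (hQ ⟨s, hQ' s hs⟩ hs) _
  | one => simp [Subgroup.one_mem]
  | mul x y _ _ hx hy =>
    have : g * (x * y) * g⁻¹ = (g * x * g⁻¹) * (g * y * g⁻¹) := by group
    rw [this]
    exact Subgroup.mul_mem _ hx hy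
  | inv x _ hx =>
    have : g * x⁻¹ * g⁻¹ = (g * x * g⁻¹)⁻¹ := by group
    rw [this]
    exact Subgroup.inv_mem _ hx

/-- `H̄` normalises `Ū`. -/
theorem Hb_conj_Ub {h u : D.SteinbergCover K} (hh : h ∈ Hb D K) (hu : u ∈ Ub R D K) : h * u * h⁻¹ ∈ Ub R D K := by
  obtain ⟨c, hc⟩ := exists_act_of_mem_Hb hF hP hh
  exact rootAct_mem_closure hF hc (fun s hs => hs) (fun s hs => hs.2) hu

omit hF hP in
theorem nbS_sq_mem {i : ℕ} (hi : i < D.rank) : nbS D K i * nbS D K i ∈ Hb D K := by
  have hm : (-1 : K) ≠ 0 := neg_ne_zero.2 one_ne_zero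
  have h1 : (hb D K (D.simple i) (-1 : K))⁻¹ = nbS D K i * nbS D K i := by
    unfold hb nbS
    rw [nb_neg_param, _root_.mul_inv_rev, inv_inv]
  rw [← h1]
  exact Subgroup.inv_mem _ (hb_mem_Hb hi hm)

omit hF hP in
theorem nbS_inv (i : ℕ) : (nbS D K i)⁻¹ = hb D K (D.simple i) (-1) * nbS D K i := by
  unfold nbS
  rw [← nb_eq_hb_mul, nb_neg_param]

theorem nbS_conj_Hb {i : ℕ} (hi : i < D.rank) {h : D.SteinbergCover K} (hh : h ∈ Hb D K) :
    nbS D K i * h * (nbS D K i)⁻¹ ∈ Hb D K := by
  obtain ⟨c, hc⟩ := exists_act_of_mem_Hb hF hP hh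
  have hp := hF.simple_lt hi
  have h1 := hc.conj_nb ⟨D.simple i, hp⟩ 1
  simp only [Equiv.Perm.coe_one, id_eq, mul_one] at h1
  set e : K := ((c ⟨D.simple i, hp⟩ : Kˣ) : K) with he
  have he0 : e ≠ 0 := (c ⟨D.simple i, hp⟩).ne_zero
  rw [nb_eq_hb_mul D _ e] at h1
  have h2 : nbS D K i * h * (nbS D K i)⁻¹ = (hb D K (D.simple i) e)⁻¹ * h := by
    unfold nbS
    have hH : hb D K (D.simple i) e = h * nb D K (D.simple i) 1 * h⁻¹ * (nb D K (D.simple i) 1)⁻¹ := by
      rw [h1]; group
    rw [hH]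
    group
  rw [h2]
  exact Subgroup.mul_mem _ (Subgroup.inv_mem _ (hb_mem_Hb hi he0)) hh

theorem nbS_inv_conj_Hb {i : ℕ} (hi : i < D.rank) {h : D.SteinbergCover K} (hh : h ∈ Hb D K) :
    (nbS D K i)⁻¹ * h * nbS D K i ∈ Hb D K := by
  have hm : (-1 : K) ≠ 0 := neg_ne_zero.2 one_ne_zero
  have h1 : (nbS D K i)⁻¹ * h * nbS D K i =
      hb D K (D.simple i) (-1) * (nbS D K i * h * (nbS D K i)⁻¹) * (hb D K (D.simple i) (-1))⁻¹ := by
    have hH : hb D K (D.simple i) (-1) = (nbS D K i)⁻¹ * (nbS D K i)⁻¹ :=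
      eq_mul_inv_of_mul_eq (nbS_inv i).symm
    rw [hH]
    group
  rw [h1]
  exact Subgroup.mul_mem _ (Subgroup.mul_mem _ (hb_mem_Hb hi hm) (nbS_conj_Hb hF hP hi hh))
    (Subgroup.inv_mem _ (hb_mem_Hb hi hm))

/-- Words in the `n̄_i` normalise `H̄`. -/
theorem wordNb_conj_Hb (L : List ℕ) (hL : ∀ i ∈ L, i < D.rank) {h : D.SteinbergCover K} (hh : h ∈ Hb D K) :
    wordNb D K L * h * (wordNb D K L)⁻¹ ∈ Hb D K := by
  induction L generalizing h with
  | nil => simpa [wordNb_nil] using hh
  | cons i L ih =>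
    rw [wordNb_cons]
    have h1 : nbS D K i * wordNb D K L * h * (nbS D K i * wordNb D K L)⁻¹ =
        nbS D K i * (wordNb D K L * h * (wordNb D K L)⁻¹) * (nbS D K i)⁻¹ := by group
    rw [h1]
    exact nbS_conj_Hb hF hP (hL i (by simp)) (ih (fun j hj => hL j (by simp [hj])) hh)

theorem exists_rootActB_word (L : List ℕ) (hL : ∀ i ∈ L, i < D.rank) :
    ∃ σ u, RootActB hF (wordNb D K L) σ u ∧ ∀ s : Fin D.nroots, ((σ s : Fin D.nroots) : ℕ) = wAct X L s := by
  induction L with
  | nil => exact ⟨1, 1, rootActB_one hF, fun s => rfl⟩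
  | cons i L ih =>
    obtain ⟨σ, u, h1, h2⟩ := ih (fun j hj => hL j (by simp [hj]))
    have hi : i < D.rank := hL i (by simp)
    rw [wordNb_cons]
    refine ⟨_, _, (rootActB_nS hF hP hi).mul h1, ?_⟩
    intro s
    show X.wf i ((σ s : Fin D.nroots) : ℕ) = X.wf i (wAct X L s)
    rw [h2]

omit hP in
theorem theta_nbS {i : ℕ} (hi : i < D.rank) : theta hF (nbS D K i) = hF.nS i :=
  theta_nb hF (hF.simple_lt hi) 1

omit hP in
theorem theta_wordNb (L : List ℕ) (hL : ∀ i ∈ L, i < D.rank) : theta hF (wordNb D K L) = hF.wordN L := by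
  induction L with
  | nil => simp [wordNb_nil, Full.wordN]
  | cons i L ih =>
    rw [wordNb_cons, map_mul, theta_nbS hF (hL i (by simp)), ih (fun j hj => hL j (by simp [hj])), hF.wordN_cons]

omit hP in
theorem theta_mem_U {u : D.SteinbergCover K} (hu : u ∈ Ub R D K) : theta hF u ∈ D.posUnipotent K := by
  unfold Ub Ubk rootClosureB at hu
  induction hu using Subgroup.closure_induction with
  | mem x hx =>
    obtain ⟨s, t, hs, rfl⟩ := hx
    rw [theta_y hF hs.2]
    exact Subgroup.subset_closure ⟨s, t, (hF.isPos_iff).2 ⟨hs.2, hs.1⟩, rfl⟩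
  | one => rw [map_one]; exact Subgroup.one_mem _
  | mul x y _ _ hx hy => rw [map_mul]; exact Subgroup.mul_mem _ hx hy
  | inv x _ hx => rw [map_inv]; exact Subgroup.inv_mem _ hx

omit hP in
theorem theta_mem_H {h : D.SteinbergCover K} (hh : h ∈ Hb D K) : theta hF h ∈ D.diagonalSubgroup K := by
  unfold Hb at hh
  induction hh using Subgroup.closure_induction with
  | mem x hx =>
    obtain ⟨i, t, hi, ht, rfl⟩ := hx
    rw [theta_hb hF (hF.simple_lt hi)]
    exact hF.c.hG_mem_diagonal (hF.simple_lt hi) ht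
  | one => rw [map_one]; exact Subgroup.one_mem _
  | mul x y _ _ hx hy => rw [map_mul]; exact Subgroup.mul_mem _ hx hy
  | inv x _ hx => rw [map_inv]; exact Subgroup.inv_mem _ hx

/-! ### The action of words on roots -/

omit hF hP in
theorem wAct_append (L L' : List ℕ) (r : ℕ) : wAct X (L ++ L') r = wAct X L (wAct X L' r) := by
  induction L with
  | nil => rfl
  | cons i L ih =>
    show X.wf i (wAct X (L ++ L') r) = X.wf i (wAct X L (wAct X L' r))
    rw [ih]

omit hF hP in
theorem wAct_cons (i : ℕ) (L : List ℕ) (r : ℕ) : wAct X (i :: L) r = X.wf i (wAct X L r) := rfl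

omit hP in
theorem wAct_lt (L : List ℕ) (hL : ∀ i ∈ L, i < D.rank) {r : ℕ} (hr : r < D.nroots) : wAct X L r < D.nroots := by
  induction L with
  | nil => exact hr
  | cons i L ih =>
    rw [wAct_cons]
    exact hF.wf_lt (hL i (by simp)) (ih (fun j hj => hL j (by simp [hj])))

omit hP in
theorem wAct_neg (L : List ℕ) (hL : ∀ i ∈ L, i < D.rank) {r : ℕ} (hr : r < D.nroots) :
    wAct X L (D.neg r) = D.neg (wAct X L r) := by
  induction L with
  | nil => rfl
  | cons i L ih =>
    rw [wAct_cons, wAct_cons, ih (fun j hj => hL j (by simp [hj])),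
      hF.wf_neg (hL i (by simp)) (wAct_lt hF L (fun j hj => hL j (by simp [hj])) hr)]

omit hP in
/-- A word sending a positive root to a negative root passes through a fundamental root. -/
theorem split_word (L : List ℕ) (hL : ∀ i ∈ L, i < D.rank) {q : ℕ} (hq : q < D.nroots) (hq' : R.N ≤ q)
    (h : wAct X L q < R.N) : ∃ P a M, L = P ++ a :: M ∧ wAct X M q = D.simple a := by
  induction L with
  | nil =>
    have : q < R.N := h
    omega
  | cons i L ih =>
    by_cases h1 : wAct X L q < R.N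
    · obtain ⟨P, a, M, rfl, h2⟩ := ih (fun j hj => hL j (by simp [hj])) h1
      exact ⟨i :: P, a, M, rfl, h2⟩
    · refine ⟨[], i, L, rfl, ?_⟩
      by_contra h2
      have hlt := wAct_lt hF L (fun j hj => hL j (by simp [hj])) hq
      have h3 := hF.wf_pos hlt (by omega) (hL i (by simp)) h2
      rw [wAct_cons] at h
      omega

/-- The deletion argument: a word in the `n̄_i` mapping into the diagonal subgroup lies in `H̄`. -/
theorem mem_Hb_of_word : ∀ (n : ℕ) (L : List ℕ), L.length ≤ n → (∀ i ∈ L, i < D.rank) →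
    theta hF (wordNb D K L) ∈ D.diagonalSubgroup K → wordNb D K L ∈ Hb D K := by
  intro n
  induction n with
  | zero =>
    intro L hn _ _
    have : L = [] := List.length_eq_zero_iff.1 (by omega)
    subst this
    exact Subgroup.one_mem _
  | succ n ih =>
    intro L hn hL hθ
    rcases List.eq_nil_or_concat' L with rfl | ⟨L₀, k, rfl⟩
    · exact Subgroup.one_mem _
    · have hk : k < D.rank := hL k (by simp)
      have hL₀ : ∀ i ∈ L₀, i < D.rank := fun i hi => hL i (by simp [hi])
      have hp := hF.simple_lt hk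
      have hpN := hF.simple_ge hk
      -- the action of the word is trivial
      obtain ⟨σ, u, hact, hσ⟩ := exists_rootActB_word hF hP (K := K) (L₀ ++ [k]) hL
      obtain ⟨c, hc⟩ := (hF.mem_diagonal_iff).1 hθ
      have h1 : σ = 1 := by
        have h2 := hact.toAct
        rw [hc] at h2
        exact h2.unique (hF.rootAct_tor c)
      have h2 : wAct X L₀ (D.neg (D.simple k)) = D.simple k := by
        have h3 := hσ ⟨D.simple k, hp⟩
        rw [h1] at h3
        simp only [Equiv.Perm.coe_one, id_eq] at h3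
        rw [wAct_append] at h3
        have h4 : wAct X [k] (D.simple k) = D.neg (D.simple k) := hF.wf_simple hk
        rw [h4] at h3
        exact h3.symm
      have h3 : wAct X L₀ (D.simple k) = D.neg (D.simple k) := by
        have h4 := wAct_neg hF L₀ hL₀ (hF.neg_lt hp)
        rw [hF.neg_neg hp, h2] at h4
        exact h4
      obtain ⟨P, a, M, rfl, hM⟩ := split_word hF (q := D.simple k) L₀ hL₀ hp hpN (by
        rw [h3]
        exact hF.neg_lt_N hp hpN)
      have hLP : ∀ i ∈ P, i < D.rank := fun i hi => hL₀ i (by simp [hi])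
      have hLM : ∀ i ∈ M, i < D.rank := fun i hi => hL₀ i (by simp [hi])
      have ha : a < D.rank := hL₀ a (by simp)
      obtain ⟨σM, uM, hM1, hM2⟩ := exists_rootActB_word hF hP (K := K) M hLM
      have h4 := hM1.conj_nb ⟨D.simple k, hp⟩ 1
      have h5 : ((σM ⟨D.simple k, hp⟩ : Fin D.nroots) : ℕ) = D.simple a := by
        rw [hM2]
        exact hM
      rw [h5, mul_one] at h4
      set e := ((uM ⟨D.simple k, hp⟩ : Kˣ) : K) with he
      have he0 : e ≠ 0 := (uM ⟨D.simple k, hp⟩).ne_zero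
      have h4' : wordNb D K M * nb D K (D.simple k) 1 * (wordNb D K M)⁻¹ = hb D K (D.simple a) e * nb D K (D.simple a) 1 := by
        rw [← nb_eq_hb_mul]
        exact h4
      -- the reduction
      have h6 : wordNb D K (P ++ a :: M ++ [k]) =
          (wordNb D K P * (nbS D K a * hb D K (D.simple a) e * (nbS D K a)⁻¹ * (nbS D K a * nbS D K a)) *
            (wordNb D K P)⁻¹) * wordNb D K (P ++ M) := by
        have h7 : wordNb D K M * nbS D K k = hb D K (D.simple a) e * nbS D K a * wordNb D K M := by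
          unfold nbS
          rw [← h4']
          group
        rw [wordNb_append, wordNb_append, wordNb_append, wordNb_cons]
        have h8 : wordNb D K [k] = nbS D K k := by simp [wordNb]
        rw [h8, mul_assoc (wordNb D K P), mul_assoc (nbS D K a), h7]
        group
      have hh3 : wordNb D K P * (nbS D K a * hb D K (D.simple a) e * (nbS D K a)⁻¹ * (nbS D K a * nbS D K a)) *
            (wordNb D K P)⁻¹ ∈ Hb D K := by
        apply wordNb_conj_Hb hF hP P hLP
        exact Subgroup.mul_mem _ (nbS_conj_Hb hF hP ha (hb_mem_Hb ha he0)) (nbS_sq_mem ha)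
      rw [h6] at hθ ⊢
      have hPM : wordNb D K (P ++ M) ∈ Hb D K := by
        apply ih (P ++ M)
        · simp only [List.length_append, List.length_cons, List.length_nil] at hn ⊢
          omega
        · intro i hi
          rcases List.mem_append.1 hi with hi | hi
          · exact hLP i hi
          · exact hLM i hi
        · rw [map_mul] at hθ
          have h9 := Subgroup.mul_mem _ (Subgroup.inv_mem _ (theta_mem_H hF hh3)) hθ
          rwa [inv_mul_cancel_left] at h9
      exact Subgroup.mul_mem _ hh3 hPM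

/-! ### The Bruhat decomposition -/

omit hF hP in
/-- The subgroup `X̄_p`. -/
theorem mem_rootClosureB_single {p : ℕ} {x : D.SteinbergCover K} (hx : x ∈ rootClosureB D K (· = p)) :
    ∃ t, x = D.scGen K p t := by
  unfold rootClosureB at hx
  induction hx using Subgroup.closure_induction with
  | mem x hx =>
    obtain ⟨s, t, rfl, rfl⟩ := hx
    exact ⟨t, rfl⟩
  | one => exact ⟨0, (yb_zero D p).symm⟩
  | mul x y _ _ hx hy =>
    obtain ⟨t, rfl⟩ := hx
    obtain ⟨u, rfl⟩ := hy
    exact ⟨t + u, yb_add D p t u⟩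
  | inv x _ hx =>
    obtain ⟨t, rfl⟩ := hx
    exact ⟨-t, yb_inv D p t⟩

omit hP in
/-- `Ū = Ū_p X̄_p`. -/
theorem mem_Ub_iff {i : ℕ} (hi : i < D.rank) {u : D.SteinbergCover K} (hu : u ∈ Ub R D K) :
    ∃ u' ∈ Upb D K i, ∃ t : K, u = u' * D.scGen K (D.simple i) t := by
  have hle : rootClosureB D K (· = D.simple i) ≤
      Subgroup.normalizer (Upb D K i : Set (D.SteinbergCover K)) := by
    unfold rootClosureB
    rw [Subgroup.closure_le]
    rintro g ⟨s, t, rfl, rfl⟩
    exact yp_mem_normalizer hF hi t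
  have h1 : u ∈ Upb D K i ⊔ rootClosureB D K (· = D.simple i) := by
    have h2 : Ub R D K ≤ Upb D K i ⊔ rootClosureB D K (· = D.simple i) := by
      unfold Ub Ubk
      conv_lhs => unfold rootClosureB
      rw [Subgroup.closure_le]
      rintro g ⟨s, t, hs, rfl⟩
      by_cases h : s = D.simple i
      · exact Subgroup.mem_sup_right (y_mem_rootClosureB (Q := fun x => x = D.simple i) h t)
      · exact Subgroup.mem_sup_left (y_mem_rootClosureB ⟨(hF.isPos_iff).2 ⟨hs.2, hs.1⟩, h⟩ t)
    exact h2 hu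
  obtain ⟨u', hu', x, hx, rfl⟩ := (GroupLem.mem_sup_iff_of_le_normalizer hle).1 h1
  obtain ⟨t, rfl⟩ := mem_rootClosureB_single hx
  exact ⟨u', hu', t, rfl⟩

/-- `n̄_i` normalises `Ū_p`. -/
theorem nbS_conj_Upb {i : ℕ} (hi : i < D.rank) {u : D.SteinbergCover K} (hu : u ∈ Upb D K i) :
    nbS D K i * u * (nbS D K i)⁻¹ ∈ Upb D K i := by
  have h1 := rootAct_mem_closure hF (rootActB_nS hF hP (K := K) hi) (Q := Full.UpQ D i) (fun s hs => upQ_wf hF hi hs)
    (fun s hs => ((hF.isPos_iff).1 hs.1).1) hu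
  exact h1

/-- The set `H̄ Ū N̄ Ū`. -/
def BSet (R : RootTab) (D : ChevalleyDatum) (K : Type*) [Field K] : Set (D.SteinbergCover K) :=
  {g | ∃ h ∈ Hb D K, ∃ u ∈ Ub R D K, ∃ L : List ℕ, (∀ i ∈ L, i < D.rank) ∧ ∃ u' ∈ Ub R D K,
    g = h * u * wordNb D K L * u'}

/-- `x` preserves `BSet` by left multiplication -/
def LM (R : RootTab) (D : ChevalleyDatum) {K : Type*} [Field K] (x : D.SteinbergCover K) : Prop :=
  ∀ g ∈ BSet R D K, x * g ∈ BSet R D K

omit hF hP in
theorem LM_mul {x y : D.SteinbergCover K} (hx : LM R D x) (hy : LM R D y) : LM R D (x * y) := by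
  intro g hg
  rw [mul_assoc]
  exact hx _ (hy g hg)

theorem LM_Hb {h : D.SteinbergCover K} (hh : h ∈ Hb D K) : LM R D h := by
  rintro g ⟨h₁, hh₁, u, hu, L, hL, u', hu', rfl⟩
  exact ⟨h * h₁, Subgroup.mul_mem _ hh hh₁, u, hu, L, hL, u', hu', by group⟩

theorem LM_Ub {x : D.SteinbergCover K} (hx : x ∈ Ub R D K) : LM R D x := by
  rintro g ⟨h₁, hh₁, u, hu, L, hL, u', hu', rfl⟩
  refine ⟨h₁, hh₁, h₁⁻¹ * x * h₁ * u, Subgroup.mul_mem _ ?_ hu, L, hL, u', hu', by group⟩
  have := Hb_conj_Ub hF hP (Subgroup.inv_mem _ hh₁) hx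
  rwa [inv_inv] at this

/-- The key step. -/
theorem LM_nbS {i : ℕ} (hi : i < D.rank) : LM R D (nbS D K i) := by
  rintro g ⟨h, hh, u, hu, L, hL, u', hu', rfl⟩
  have hp := hF.simple_lt hi
  have hpN := hF.simple_ge hi
  have hm : (-1 : K) ≠ 0 := neg_ne_zero.2 one_ne_zero
  obtain ⟨u₁, hu₁, t, rfl⟩ := mem_Ub_iff hF hi hu
  set n := nbS D K i with hn
  set w := wordNb D K L with hw
  have hh₁ := nbS_conj_Hb hF hP (K := K) hi hh
  have hu₂ := nbS_conj_Upb hF hP (K := K) hi hu₁
  have hu₂' : n * u₁ * n⁻¹ ∈ Ub R D K := Upb_le_Ub hF i hu₂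
  have hmain : n * (h * (u₁ * D.scGen K (D.simple i) t) * w * u') =
      (n * h * n⁻¹) * (n * u₁ * n⁻¹) * (n * D.scGen K (D.simple i) t * w * u') := by group
  rw [hmain]
  by_cases ht : t = 0
  · subst ht
    rw [yb_zero, mul_one]
    exact ⟨_, hh₁, _, hu₂', i :: L, by
      intro j hj
      rcases List.mem_cons.1 hj with rfl | hj
      · exact hi
      · exact hL j hj, u', hu', by rw [wordNb_cons, ← hw, ← hn]; group⟩
  · obtain ⟨σ, c, hact, hσ⟩ := exists_rootActB_word hF hP (K := K) L hL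
    set q : Fin D.nroots := σ⁻¹ ⟨D.simple i, hp⟩ with hq
    have hσq : σ q = ⟨D.simple i, hp⟩ := by simp [hq]
    have hnL : ∀ j ∈ i :: L, j < D.rank := by
      intro j hj
      rcases List.mem_cons.1 hj with rfl | hj
      · exact hi
      · exact hL j hj
    by_cases hqpos : R.N ≤ (q : ℕ)
    · -- the root stays positive
      have h1 := hact.conj q (((c q)⁻¹ : Kˣ) * t)
      rw [hσq, ← mul_assoc, ← Units.val_mul, mul_inv_cancel, Units.val_one, one_mul] at h1
      have h2 : D.scGen K (D.simple i) t * w = w * D.scGen K q (((c q)⁻¹ : Kˣ) * t) := by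
        rw [← h1, hw]
        group
      refine ⟨_, hh₁, _, hu₂', i :: L, hnL, D.scGen K q (((c q)⁻¹ : Kˣ) * t) * u',
        Subgroup.mul_mem _ (y_mem_Ub q.2 hqpos _) hu', ?_⟩
      have h3 : n * D.scGen K (D.simple i) t * w * u' = n * w * (D.scGen K q (((c q)⁻¹ : Kˣ) * t) * u') := by
        rw [mul_assoc n, h2]
        group
      rw [wordNb_cons, ← hw, ← hn, h3]
      group
    · -- the root becomes negative
      have hq2 : (q : ℕ) < R.N := by omega
      set q' : Fin D.nroots := hF.negF q with hq'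
      have hq'pos : R.N ≤ (q' : ℕ) := hF.neg_ge_N hq2
      have hσq' : σ q' = hF.negF ⟨D.simple i, hp⟩ := by
        rw [hq', hact.neg_σ, hσq]
      set τ : K := t⁻¹ with hτ
      have hτ0 : τ ≠ 0 := inv_ne_zero ht
      have h1 := hact.conj q' (((c q')⁻¹ : Kˣ) * τ)
      rw [hσq', ← mul_assoc, ← Units.val_mul, mul_inv_cancel, Units.val_one, one_mul] at h1
      have h1' : D.scGen K (D.neg (D.simple i)) τ * w = w * D.scGen K q' (((c q')⁻¹ : Kˣ) * τ) := by
        have h5 : ((hF.negF ⟨D.simple i, hp⟩ : Fin D.nroots) : ℕ) = D.neg (D.simple i) := rfl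
        rw [h5] at h1
        rw [← h1, hw]
        group
      -- `n y_p(t) n⁻¹ = y_{-p}(-t)`
      have h2 : n * D.scGen K (D.simple i) t * n⁻¹ = D.scGen K (D.neg (D.simple i)) (-t) := by
        have := nb_conj hF hP hi hp t
        rw [hF.wf_simple hi, hF.eta_simple hi] at this
        rw [hn]
        unfold nbS
        rw [this]
        congr 1
        push_cast
        ring
      -- `y_{-p}(-t) = y_p(-τ) n̄(τ) y_p(-τ)`
      have h3 : D.scGen K (D.neg (D.simple i)) (-t) =
          D.scGen K (D.simple i) (-τ) * nb D K (D.simple i) τ * D.scGen K (D.simple i) (-τ) := by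
        have h31 : D.scGen K (D.simple i) (-τ) = (D.scGen K (D.simple i) τ)⁻¹ := (yb_inv D _ τ).symm
        have h32 : -τ⁻¹ = -t := by rw [hτ, inv_inv]
        unfold nb
        rw [h32, h31]
        generalize D.scGen K (D.simple i) τ = a
        generalize D.scGen K (D.neg (D.simple i)) (-t) = b
        group
      -- `y_p(-τ) n = n y_{-p}(τ)`
      have h4 : D.scGen K (D.simple i) (-τ) * n = n * D.scGen K (D.neg (D.simple i)) τ := by
        have := nb_conj hF hP hi (hF.neg_lt hp) τ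
        rw [hF.wf_neg_simple hi, hF.eta_neg hi hp, hF.eta_simple hi] at this
        have h5 : (((-1 : ℤ) : K)) * τ = -τ := by push_cast; ring
        rw [h5] at this
        rw [← this, hn]
        unfold nbS
        group
      have h6 : nb D K (D.simple i) τ * n = hb D K (D.simple i) τ * (n * n) := by
        rw [nb_eq_hb_mul, hn]
        unfold nbS
        group
      have hh₂ : hb D K (D.simple i) τ * (n * n) ∈ Hb D K :=
        Subgroup.mul_mem _ (hb_mem_Hb hi hτ0) (nbS_sq_mem hi)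
      set h₂ := hb D K (D.simple i) τ * (n * n) with hh₂'
      have key : n * D.scGen K (D.simple i) t * w * u' =
          D.scGen K (D.simple i) (-τ) * h₂ * w * (D.scGen K q' (((c q')⁻¹ : Kˣ) * τ) * u') := by
        have h7 : n * D.scGen K (D.simple i) t = D.scGen K (D.neg (D.simple i)) (-t) * n := by
          rw [← h2]; group
        calc n * D.scGen K (D.simple i) t * w * u'
            = D.scGen K (D.neg (D.simple i)) (-t) * n * w * u' := by rw [h7]
          _ = D.scGen K (D.simple i) (-τ) * nb D K (D.simple i) τ * (D.scGen K (D.simple i) (-τ) * n) * w * u' := by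
              rw [h3]; group
          _ = D.scGen K (D.simple i) (-τ) * (nb D K (D.simple i) τ * n) *
                (D.scGen K (D.neg (D.simple i)) τ * w) * u' := by
              rw [h4]; group
          _ = _ := by
              rw [h6, h1']; group
      rw [key]
      have hu₃ : D.scGen K (D.simple i) (-τ) ∈ Ub R D K := y_mem_Ub hp hpN _
      have hu₄ := Hb_conj_Ub hF hP (Subgroup.inv_mem _ hh₂)
        (Subgroup.mul_mem _ hu₂' hu₃)
      rw [inv_inv] at hu₄
      refine ⟨(n * h * n⁻¹) * h₂, Subgroup.mul_mem _ hh₁ hh₂, _, hu₄, L, hL,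
        D.scGen K q' (((c q')⁻¹ : Kˣ) * τ) * u', Subgroup.mul_mem _ (y_mem_Ub q'.2 hq'pos _) hu', ?_⟩
      rw [← hw]
      group

theorem LM_nbS_inv {i : ℕ} (hi : i < D.rank) : LM R D (nbS D K i)⁻¹ := by
  have hm : (-1 : K) ≠ 0 := neg_ne_zero.2 one_ne_zero
  rw [nbS_inv]
  exact LM_mul (LM_Hb hF hP (hb_mem_Hb hi hm)) (LM_nbS hF hP hi)

theorem LM_wordNb (L : List ℕ) (hL : ∀ i ∈ L, i < D.rank) : LM R D (wordNb D K L) := by
  induction L with
  | nil => intro g hg; simpa [wordNb_nil] using hg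
  | cons i L ih =>
    rw [wordNb_cons]
    exact LM_mul (LM_nbS hF hP (hL i (by simp))) (ih (fun j hj => hL j (by simp [hj])))

theorem LM_wordNb_inv (L : List ℕ) (hL : ∀ i ∈ L, i < D.rank) : LM R D (wordNb D K L)⁻¹ := by
  induction L with
  | nil => intro g hg; simpa [wordNb_nil] using hg
  | cons i L ih =>
    rw [wordNb_cons, _root_.mul_inv_rev]
    exact LM_mul (ih (fun j hj => hL j (by simp [hj]))) (LM_nbS_inv hF hP (hL i (by simp)))

theorem LM_y {r : ℕ} (hr : r < D.nroots) (t : K) : LM R D (D.scGen K r t) := by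
  by_cases h : R.N ≤ r
  · exact LM_Ub hF hP (y_mem_Ub hr h t)
  · obtain ⟨σ, c, hact, hσ⟩ := exists_rootActB_word hF hP (K := K) R.w0 hF.r.w0_lt
    have h1 := hact.conj ⟨r, hr⟩ t
    have h2 : R.N ≤ ((σ ⟨r, hr⟩ : Fin D.nroots) : ℕ) := by
      rw [hσ]
      have := hF.r.w0_act r hr
      simp only at *
      by_contra h3
      exact h (this.2 (by omega))
    have h3 : D.scGen K r t = (wordNb D K R.w0)⁻¹ * D.scGen K (σ ⟨r, hr⟩) ((c ⟨r, hr⟩ : K) * t) * wordNb D K R.w0 := by
      rw [← h1]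
      group
    rw [h3]
    exact LM_mul (LM_mul (LM_wordNb_inv hF hP _ hF.r.w0_lt) (LM_Ub hF hP (y_mem_Ub (σ ⟨r, hr⟩).2 h2 _)))
      (LM_wordNb hF hP _ hF.r.w0_lt)

/-- The Bruhat decomposition of `Ḡ`. -/
theorem mem_BSet (g : D.SteinbergCover K) : g ∈ BSet R D K := by
  have h1 : (1 : D.SteinbergCover K) ∈ BSet R D K :=
    ⟨1, Subgroup.one_mem _, 1, Subgroup.one_mem _, [], by simp, 1, Subgroup.one_mem _, by simp [wordNb_nil]⟩
  have h2 : g ∈ (⊤ : Subgroup (D.SteinbergCover K)) := Subgroup.mem_top g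
  rw [← PresentedGroup.closure_range_of] at h2
  induction h2 using Subgroup.closure_induction_left with
  | one => exact h1
  | mul_left x hx y _ ih =>
    obtain ⟨⟨r, t⟩, rfl⟩ := hx
    have h : PresentedGroup.of (rels := D.steinbergRelsAB K) ((r, t) : Fin D.nroots × K) = D.scGen K r t := by
      unfold ChevalleyDatum.scGen ChevalleyDatum.stX
      rw [dif_pos r.2]
      rfl
    rw [h]
    exact LM_y hF hP r.2 t _ ih
  | inv_mul_cancel x hx y _ ih =>
    obtain ⟨⟨r, t⟩, rfl⟩ := hx
    have h : PresentedGroup.of (rels := D.steinbergRelsAB K) ((r, t) : Fin D.nroots × K) = D.scGen K r t := by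
      unfold ChevalleyDatum.scGen ChevalleyDatum.stX
      rw [dif_pos r.2]
      rfl
    rw [h, yb_inv]
    exact LM_y hF hP r.2 (-t) _ ih

/-- The kernel of `theta` lies in `H̄`. -/
theorem ker_theta_le : (theta hF (K := K)).ker ≤ Hb D K := by
  intro g hg
  obtain ⟨h, hh, u, hu, L, hL, u', hu', rfl⟩ := mem_BSet hF hP g
  rw [MonoidHom.mem_ker, map_mul, map_mul, map_mul] at hg
  have hθh := theta_mem_H hF hh
  have hθu := theta_mem_U hF hu
  have hθu' := theta_mem_U hF hu'
  have hw : theta hF (wordNb D K L) ∈ D.diagonalSubgroup K := by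
    rw [← hF.B_inf_N]
    refine ⟨?_, ?_⟩
    · have key : ∀ a b c d : GL D.Idx K, a * b * c * d = 1 → c = (a * b)⁻¹ * d⁻¹ := by
        intro a b c d h
        have h2 : a * b * c = d⁻¹ := eq_inv_of_mul_eq_one_left h
        rw [← h2]
        group
      have h1 := key _ _ _ _ hg
      rw [h1]
      unfold ChevalleyDatum.borelSubgroup
      exact Subgroup.mul_mem _ (Subgroup.inv_mem _ (Subgroup.mul_mem _ (Subgroup.mem_sup_right hθh)
        (Subgroup.mem_sup_left hθu))) (Subgroup.inv_mem _ (Subgroup.mem_sup_left hθu'))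
    · rw [theta_wordNb hF L hL]
      exact hF.wordN_mem_monomial L hL
  have hwb := mem_Hb_of_word hF hP _ L le_rfl hL hw
  set w := wordNb D K L with hw'
  -- rewrite as `h' u''`
  have h1 : h * u * w * u' = (h * w) * (w⁻¹ * u * w * u') := by group
  rw [h1]
  have hu₅ : w⁻¹ * u * w * u' ∈ Ub R D K := by
    refine Subgroup.mul_mem _ ?_ hu'
    have := Hb_conj_Ub hF hP (Subgroup.inv_mem _ hwb) hu
    rwa [inv_inv] at this
  have hh₅ := Subgroup.mul_mem _ hh hwb
  have h2 : theta hF (w⁻¹ * u * w * u') = 1 := by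
    have h3 : theta hF (h * w) * theta hF (w⁻¹ * u * w * u') = 1 := by
      rw [← map_mul]
      have h4 : h * w * (w⁻¹ * u * w * u') = h * u * w * u' := by group
      rw [h4, map_mul, map_mul, map_mul]
      exact hg
    have h4 : theta hF (w⁻¹ * u * w * u') ∈ D.posUnipotent K ⊓ D.diagonalSubgroup K := by
      refine ⟨theta_mem_U hF hu₅, ?_⟩
      have h5 : theta hF (w⁻¹ * u * w * u') = (theta hF (h * w))⁻¹ := eq_inv_of_mul_eq_one_right h3
      rw [h5]
      exact Subgroup.inv_mem _ (theta_mem_H hF hh₅)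
    rw [hF.U_inf_H, Subgroup.mem_bot] at h4
    exact h4
  have h3 : w⁻¹ * u * w * u' = 1 := by
    apply theta_inj_U hF hu₅ (Subgroup.one_mem _)
    rw [h2, map_one]
  rw [h3, mul_one]
  exact hh₅

end Cfsg.Agent.Lib.ChevCov
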