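import Cfsg.Agent.Lib.ChevCov.Bruhat
import Cfsg.Agent.Lib.ChevPresCenterCore
import Cfsg.Agent.Lib.Chev.BNPairChev
import Cfsg.Agent.Lib.Chev.TorusCard

/-!
# The kernel of `Ḡ → G` is the centre of `Ḡ`
-/

set_option autoImplicit false

namespace Cfsg.Agent.Lib.ChevCov

open Cfsg.Lie Cfsg.Agent.Lib.Chev
open Cfsg.Agent.Lib.ChevPres (NegOK negTerm negWord commWord_neg neg_ne_of WOK PresOK center_group_eq_bot)

variable {K : Type*} [Field K]
variable {T : Tabs} {X : Extra} {R : RootTab} {D : ChevalleyDatum} (hF : Full T X R D) (hP : PresOK X D)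

/-- `theta` with values in the Chevalley group -/
noncomputable def thetaG (hF : Full T X R D) : D.SteinbergCover K →* ↥(D.group K) :=
  (theta hF).codRestrict (D.group K) (by
    intro g
    have h2 : g ∈ (⊤ : Subgroup (D.SteinbergCover K)) := Subgroup.mem_top g
    rw [← PresentedGroup.closure_range_of] at h2
    induction h2 using Subgroup.closure_induction with
    | mem x hx =>
      obtain ⟨⟨r, t⟩, rfl⟩ := hx
      have h : PresentedGroup.of (rels := D.steinbergRelsAB K) ((r, t) : Fin D.nroots × K) = D.scGen K r t := by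
        unfold ChevalleyDatum.scGen ChevalleyDatum.stX
        rw [dif_pos r.2]
        rfl
      rw [h, theta_y hF r.2]
      exact hF.c.xG_mem_group r.2 t
    | one => rw [map_one]; exact Subgroup.one_mem _
    | mul x y _ _ hx hy => rw [map_mul]; exact Subgroup.mul_mem _ hx hy
    | inv x _ hx => rw [map_inv]; exact Subgroup.inv_mem _ hx)

theorem coe_thetaG (g : D.SteinbergCover K) : ((thetaG hF g : ↥(D.group K)) : GL D.Idx K) = theta hF g := rfl

theorem thetaG_surjective : Function.Surjective (thetaG (K := K) hF) := by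
  rintro ⟨g, hg⟩
  have h1 : D.group K ≤ (theta (K := K) hF).range := by
    unfold ChevalleyDatum.group
    rw [Subgroup.closure_le]
    rintro x ⟨r, t, hx⟩
    refine ⟨D.scGen K r t, ?_⟩
    rw [theta_y hF r.2]
    apply Units.ext
    rw [hF.c.coe_xG, hx]
    simp [ChevalleyDatum.x, r.2]
  obtain ⟨y, hy⟩ := h1 hg
  exact ⟨y, Subtype.ext hy⟩

theorem ker_thetaG : (thetaG (K := K) hF).ker = (theta (K := K) hF).ker := by
  ext g
  rw [MonoidHom.mem_ker, MonoidHom.mem_ker]
  constructor
  · intro h
    have := congrArg Subtype.val h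
    rwa [coe_thetaG] at this
  · intro h
    exact Subtype.ext h

include hP

/-- An element of the kernel centralises all of `Ḡ`. -/
theorem ker_le_center : (theta (K := K) hF).ker ≤ Subgroup.center (D.SteinbergCover K) := by
  intro k hk
  have hk2 := ker_theta_le hF hP hk
  obtain ⟨u, hu⟩ := exists_act_of_mem_Hb hF hP hk2
  have hk1 : theta hF k = 1 := hk
  have h1 : ∀ (s : Fin D.nroots) (t : K), k * D.scGen K s t * k⁻¹ = D.scGen K s t := by
    intro s t
    have h2 := hu.conj s t
    have h3 := congrArg (theta hF) h2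
    rw [map_mul, map_mul, map_inv, hk1, theta_y hF s.2] at h3
    simp only [one_mul, inv_one, mul_one, Equiv.Perm.coe_one, id_eq] at h3
    rw [theta_y hF s.2] at h3
    have h4 := hF.xG_param_inj s.2 h3
    rw [h2]
    simp only [Equiv.Perm.coe_one, id_eq]
    rw [← h4]
  rw [Subgroup.mem_center_iff]
  intro g
  have h2 : g ∈ (⊤ : Subgroup (D.SteinbergCover K)) := Subgroup.mem_top g
  rw [← PresentedGroup.closure_range_of] at h2
  induction h2 using Subgroup.closure_induction with
  | mem x hx =>
    obtain ⟨⟨r, t⟩, rfl⟩ := hx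
    have h : PresentedGroup.of (rels := D.steinbergRelsAB K) ((r, t) : Fin D.nroots × K) = D.scGen K r t := by
      unfold ChevalleyDatum.scGen ChevalleyDatum.stX
      rw [dif_pos r.2]
      rfl
    rw [h]
    have := h1 r t
    rw [mul_inv_eq_iff_eq_mul] at this
    exact this.symm
  | one => simp
  | mul x y _ _ hx hy =>
    rw [mul_assoc, hy, ← mul_assoc, hx, mul_assoc]
  | inv x _ hx =>
    rw [inv_mul_eq_iff_eq_mul, ← mul_assoc, hx]
    group

/-- The kernel of `Ḡ → G` is the centre. -/
theorem ker_eq_center : (thetaG (K := K) hF).ker = Subgroup.center (D.SteinbergCover K) := by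
  rw [ker_thetaG]
  apply le_antisymm (ker_le_center hF hP)
  intro z hz
  rw [← ker_thetaG, MonoidHom.mem_ker]
  have h1 : thetaG hF z ∈ Subgroup.center ↥(D.group K) := by
    rw [Subgroup.mem_center_iff]
    intro g
    obtain ⟨y, rfl⟩ := thetaG_surjective hF g
    rw [← map_mul, ← map_mul, (Subgroup.mem_center_iff).1 hz y]
  rw [center_group_eq_bot hF, Subgroup.mem_bot] at h1
  exact h1

end Cfsg.Agent.Lib.ChevCov
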