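import Cfsg.Agent.Lib.ChevStRed3

/-!
# Invariant forms over fields with more than four elements, without finiteness

A biadditive form on a field with more than four elements, invariant under `(x, y) ↦ (d x, d y)`, vanishes.  The
torus arguments for lifts of root elements then hold over all such fields.
-/

set_option autoImplicit false
set_option linter.unusedSectionVars false
set_option linter.unusedVariables false

namespace Cfsg.Agent.Lib.ChevCov

open Cfsg Cfsg.Lie Matrix Cfsg.Agent.Lib.Chev Cfsg.Agent.Lib.ChevLift Cfsg.Agent.Lib.ChevLift.RD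
  Cfsg.Agent.Lib.ChevLiftC Cfsg.Agent.Lib.ChevBL Cfsg.Agent.Lib.ChevStem Cfsg.Agent.Lib.ChevTorTab
  Cfsg.Agent.Lib.ChevTor Cfsg.Agent.Lib.StA Cfsg.Agent.Lib.ChevStRed
open scoped commutatorElement

section Field

variable {K : Type*} [Field K]

/-- An element outside a set with at most four elements. -/
lemma exists_not_mem_of_four (hK : ∃ s : Finset K, 4 < s.card) (T : Finset K) (hT : T.card ≤ 4) : ∃ l : K, l ∉ T := by
  classical
  obtain ⟨s, hs⟩ := hK
  by_contra h
  push Not at h
  have h1 : s ⊆ T := fun x _ => h x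
  have := Finset.card_le_card h1
  omega

lemma exists_pow_ne_one_gen (hK : ∃ s : Finset K, 4 < s.card) {d : ℕ} (hd : 0 < d) (hd3 : d ≤ 3) :
    ∃ l : K, l ≠ 0 ∧ l ^ d ≠ 1 := by
  classical
  set T : Finset K := insert 0 (Polynomial.nthRoots d (1 : K)).toFinset with hT
  have h1 : T.card ≤ 4 := by
    rw [hT]
    have h2 := Finset.card_insert_le (0 : K) (Polynomial.nthRoots d (1 : K)).toFinset
    have h3 : (Polynomial.nthRoots d (1 : K)).toFinset.card ≤ d :=
      (Multiset.toFinset_card_le _).trans (Polynomial.card_nthRoots d 1)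
    omega
  obtain ⟨l, hl⟩ := exists_not_mem_of_four hK T h1
  refine ⟨l, fun e => hl (by simp [hT, e]), fun e => hl ?_⟩
  rw [hT, Finset.mem_insert]
  right
  rw [Multiset.mem_toFinset, Polynomial.mem_nthRoots hd]
  exact e

/-- Two parameters with different values of `t (t + 1)`. -/
lemma exists_two_params (hK : ∃ s : Finset K, 4 < s.card) :
    ∃ t t' : K, t ≠ 0 ∧ t + 1 ≠ 0 ∧ t + 2 ≠ 0 ∧ t' ≠ 0 ∧ t' + 1 ≠ 0 ∧ t' + 2 ≠ 0 ∧ t * (t + 1) ≠ t' * (t' + 1) := by
  classical
  by_cases h2 : (2 : K) = 0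
  · -- characteristic two
    have hm : (1 : K) + 1 = 0 := by
      rw [← h2]
      norm_num
    obtain ⟨t, ht⟩ := exists_not_mem_of_four hK {0, 1} (Finset.card_le_two.trans (by norm_num))
    simp only [Finset.mem_insert, Finset.mem_singleton, not_or] at ht
    obtain ⟨t', ht'⟩ := exists_not_mem_of_four hK {0, 1, t, t + 1} Finset.card_le_four
    simp only [Finset.mem_insert, Finset.mem_singleton, not_or] at ht'
    have hne : ∀ x : K, x ≠ 1 → x + 1 ≠ 0 := by
      intro x hx e
      apply hx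
      have : x = x + (1 + 1) := by rw [hm, add_zero]
      rw [this, ← add_assoc, e, zero_add]
    refine ⟨t, t', ht.1, hne t ht.2, ?_, ht'.1, hne t' ht'.2.1, ?_, ?_⟩
    · rw [h2, add_zero]
      exact ht.1
    · rw [h2, add_zero]
      exact ht'.1
    · intro e
      have e1 : (t - t') * (t + t' + 1) = 0 := by
        linear_combination e
      rcases mul_eq_zero.mp e1 with e2 | e2
      · exact ht'.2.2.1 (sub_eq_zero.mp e2).symm
      · apply ht'.2.2.2
        linear_combination e2 - (t + 1) * h2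
  by_cases h3 : (3 : K) = 0
  · -- characteristic three
    have h1' : (2 : K) = -1 := by linear_combination h3
    obtain ⟨t, ht⟩ := exists_not_mem_of_four hK {0, -1, -2} (Finset.card_le_three.trans (by norm_num))
    simp only [Finset.mem_insert, Finset.mem_singleton, not_or] at ht
    have h4 : t + 1 ≠ 0 := fun e => ht.2.1 (eq_neg_of_add_eq_zero_left e)
    have h5 : t + 2 ≠ 0 := fun e => ht.2.2 (eq_neg_of_add_eq_zero_left e)
    refine ⟨t, -t, ht.1, h4, h5, neg_ne_zero.mpr ht.1, ?_, ?_, ?_⟩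
    · intro e
      apply h5
      linear_combination (-1 : K) * e + h3
    · intro e
      apply h4
      linear_combination (-1 : K) * e + h3
    · intro e
      have e1 : (2 : K) * t = 0 := by linear_combination e
      rcases mul_eq_zero.mp e1 with e2 | e2
      · exact h2 e2
      · exact ht.1 e2
  · obtain ⟨t', ht'⟩ := exists_not_mem_of_four hK {0, -1, -2, 1} Finset.card_le_four
    simp only [Finset.mem_insert, Finset.mem_singleton, not_or] at ht'
    have h4 : (1 : K) + 1 = 2 := by norm_num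
    have h5 : (1 : K) + 2 = 3 := by norm_num
    refine ⟨1, t', one_ne_zero, by rw [h4]; exact h2, by rw [h5]; exact h3, ht'.1, ?_, ?_, ?_⟩
    · exact fun e => ht'.2.1 (eq_neg_of_add_eq_zero_left e)
    · exact fun e => ht'.2.2.1 (eq_neg_of_add_eq_zero_left e)
    · intro e
      have e1 : (t' - 1) * (t' + 2) = 0 := by linear_combination (-1 : K) * e
      rcases mul_eq_zero.mp e1 with e2 | e2
      · exact ht'.2.2.2 (sub_eq_zero.mp e2)
      · exact ht'.2.2.1 (eq_neg_of_add_eq_zero_left e2)

/-- The main lemma. -/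
theorem form_eq_zero_gen {V : Type*} [AddCommGroup V] (hK : ∃ s : Finset K, 4 < s.card) (B : K →+ K →+ V)
    (hinv : ∀ d : K, d ≠ 0 → ∀ x y, B (d * x) (d * y) = B x y) (x y : K) : B x y = 0 := by
  have h1 : ∀ t : K, t ≠ 0 → t + 1 ≠ 0 → ∀ a b, B (t * a) b + B (t⁻¹ * a) b + B a b = 0 := by
    intro t ht0 ht1 a b
    have e1 := hinv (t + 1) ht1 a b
    have e2 := hinv t ht0 a b
    have e3 := hinv t ht0 (t⁻¹ * a) b
    rw [mul_inv_cancel_left₀ ht0] at e3
    have e6 : B ((t + 1) * a) ((t + 1) * b) = B a b + B a (t * b) + B (t * a) b + B (t * a) (t * b) := by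
      rw [add_mul, add_mul, one_mul, one_mul]
      simp only [map_add, AddMonoidHom.add_apply]
      abel
    rw [e6, e2] at e1
    rw [← e3]
    have e7 : B (t * a) b + B a (t * b) + B a b = (B a b + B a (t * b) + B (t * a) b + B a b) - B a b := by abel
    rw [e7, e1, sub_self]
  have h2 : ∀ t : K, t ≠ 0 → t + 1 ≠ 0 → t + 2 ≠ 0 → ∀ a b, B ((t * (t + 1)) * a) b = B a b := by
    intro t ht0 ht1 ht2 a b
    set w := t * (t + 1) with hw
    have hw0 : w ≠ 0 := mul_ne_zero ht0 ht1
    have key : ∀ a b, B (w⁻¹ * a) b = B a b := by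
      intro a b
      have e1 := h1 t ht0 ht1 a b
      have ht2' : t + 1 + 1 ≠ 0 := by
        intro e
        apply ht2
        rw [← e]
        ring
      have e2 := h1 (t + 1) ht1 ht2' a b
      have e3 : t⁻¹ * a = (t + 1)⁻¹ * a + w⁻¹ * a := by
        rw [hw]
        field_simp
      have e4 : (t + 1) * a = t * a + a := by ring
      rw [e3, map_add, AddMonoidHom.add_apply] at e1
      rw [e4, map_add, AddMonoidHom.add_apply] at e2
      have e5 : B (w⁻¹ * a) b = (B (t * a) b + (B ((t + 1)⁻¹ * a) b + B (w⁻¹ * a) b) + B a b) -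
          (B (t * a) b + B a b + B ((t + 1)⁻¹ * a) b + B a b) + B a b := by abel
      rw [e5, e1, e2]
      simp
    have e := key (w * a) b
    rw [inv_mul_cancel_left₀ hw0] at e
    exact e.symm
  obtain ⟨t, t', a1, a2, a3, b1, b2, b3, hne⟩ := exists_two_params hK
  set e := t * (t + 1) - t' * (t' + 1) with he
  have he0 : e ≠ 0 := sub_ne_zero.mpr hne
  have e1 : x = e * (e⁻¹ * x) := (mul_inv_cancel_left₀ he0 x).symm
  rw [e1, he, sub_mul, map_sub, AddMonoidHom.sub_apply, h2 t a1 a2 a3, h2 t' b1 b2 b3, sub_self]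

end Field

variable {T : Tabs} {X : Extra} {R : RootTab} {D : ChevalleyDatum} (hF : Full T X R D)
variable {F : Type*} [Field F] {Γ : Type*} [Group Γ]
  (p : Γ →* ↥(D.group F)) (hs : Function.Surjective p) (hc : p.ker ≤ Subgroup.center Γ)

/-! ### The form on a root group -/

include hc in
/-- The form on a root group vanishes, when some torus element acts with value one. -/
theorem BB_self_gen (hK : ∃ s : Finset F, 4 < s.card) {κ : Fin D.nroots} {v : List ℤ} (hv : dotC D v κ = 1) (a b : F) :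
    BB p hs ((rd hF F).X κ a) ((rd hF F).X κ b) = 1 := by
  classical
  have hcomm : ∀ x y : F, Commute ((rd hF F).X κ x) ((rd hF F).X κ y) := (rd hF F).X_comm_self κ
  have hcen : ∀ x y : F, BB p hs ((rd hF F).X κ x) ((rd hF F).X κ y) ∈ Subgroup.center Γ :=
    fun x y => BB_central p hs hc (hcomm x y)
  have h1 : ∀ x x' y : F, BB p hs ((rd hF F).X κ (x + x')) ((rd hF F).X κ y) =
      BB p hs ((rd hF F).X κ x) ((rd hF F).X κ y) * BB p hs ((rd hF F).X κ x') ((rd hF F).X κ y) := by
    intro x x' y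
    rw [(rd hF F).X_add]
    exact BB_mul_left p hs hc (hcomm _ _) (hcomm _ _)
  have h2 : ∀ x y y' : F, BB p hs ((rd hF F).X κ x) ((rd hF F).X κ (y + y')) =
      BB p hs ((rd hF F).X κ x) ((rd hF F).X κ y) * BB p hs ((rd hF F).X κ x) ((rd hF F).X κ y') := by
    intro x y y'
    rw [(rd hF F).X_add]
    exact BB_mul_right p hs hc (hcomm _ _) (hcomm _ _)
  have hinv : ∀ d : F, d ≠ 0 → ∀ x y : F,
      BB p hs ((rd hF F).X κ (d * x)) ((rd hF F).X κ (d * y)) = BB p hs ((rd hF F).X κ x) ((rd hF F).X κ y) := by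
    intro d hd x y
    obtain ⟨g, hg⟩ := hs (tg hF (vecT D v (Units.mk0 d hd)))
    have e : ∀ z : F, p g * (rd hF F).X κ z * (p g)⁻¹ = (rd hF F).X κ (d * z) := by
      intro z
      rw [hg, tg_conj, chi_of_dual hv]
      rfl
    rw [← e, ← e]
    exact BB_conj_central p hs hc g (hcomm x y)
  letI : CommGroup (Subgroup.center Γ) :=
    { (inferInstance : Group (Subgroup.center Γ)) with
      mul_comm := fun a b => Subtype.ext (Subgroup.mem_center_iff.mp a.2 b.1).symm }
  let c : F → F → Γ := fun x y => BB p hs ((rd hF F).X κ x) ((rd hF F).X κ y)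
  let B1 : F → F →+ Additive (Subgroup.center Γ) := fun s =>
    AddMonoidHom.mk' (fun t => Additive.ofMul (⟨c s t, hcen s t⟩ : Subgroup.center Γ)) (by
      intro t t'
      apply Additive.toMul.injective
      apply Subtype.ext
      exact h2 s t t')
  let B : F →+ F →+ Additive (Subgroup.center Γ) := AddMonoidHom.mk' B1 (by
    intro s s'
    ext t
    exact h1 s s' t)
  have hz := form_eq_zero_gen hK B
    (fun d hd x y => by
      apply Additive.toMul.injective
      apply Subtype.ext
      exact hinv d hd x y) a b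
  have h3 := congrArg (fun w : Additive (Subgroup.center Γ) => ((Additive.toMul w : Subgroup.center Γ) : Γ)) hz
  exact h3

/-! ### Witnesses -/

lemma wit_of_vec_gen {k s : ℕ} {v : List ℤ} {d : ℕ} (h1 : dotC D v s = 0) (h2 : dotC D v k = d)
    (hd : ∃ l : F, l ≠ 0 ∧ l ^ d ≠ 1) : TL.Wit hF p hs k s := by
  obtain ⟨l, hl, hl2⟩ := hd
  refine Or.inl ⟨vecT D v (Units.mk0 l hl), ?_, ?_⟩
  · rw [chiT_vec, h1, zpow_zero]
  · rw [chiT_vec, h2, zpow_natCast]
    intro e
    apply hl2
    have := congrArg Units.val e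
    simpa using this

lemma wit_of_ok_gen {W : List (List (List ℤ))} {ds : List ℕ} (h : witOk R D W ds = true)
    (hd : ∀ d ∈ ds, ∃ l : F, l ≠ 0 ∧ l ^ d ≠ 1) :
    ∀ k s, R.N ≤ k → k < s → s < D.nroots → TL.Wit hF p hs k s := by
  intro k s h1 h2 h3
  simp only [witOk, List.all_eq_true, List.mem_range] at h
  have h4 := h k (by omega) s h3
  have e1 : Nat.ble R.N k = true := by simpa using h1
  have e2 : Nat.blt k s = true := by simpa using h2
  rw [e1, e2] at h4
  simp only [Bool.and_self, Bool.not_true, Bool.false_or, Bool.and_eq_true, beq_iff_eq, List.any_eq_true] at h4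
  obtain ⟨h5, d, hd1, hd2⟩ := h4
  exact wit_of_vec_gen hF p hs h5 hd2 (hd d hd1)

lemma hchi_gen {κ : ℕ} {v : List ℤ} {d : ℕ} (h : dotC D v κ = d) (hd : ∃ l : F, l ≠ 0 ∧ l ^ d ≠ 1) :
    ∃ c : Fin D.rank → Fˣ, chiT D c κ ≠ 1 := by
  obtain ⟨l, hl, hl2⟩ := hd
  refine ⟨vecT D v (Units.mk0 l hl), ?_⟩
  rw [chiT_vec, h, zpow_natCast]
  intro e
  apply hl2
  have := congrArg Units.val e
  simpa using this

end Cfsg.Agent.Lib.ChevCov
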