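import Cfsg.Agent.Lib.ChevCov.Pres
import Cfsg.Agent.Lib.Chev.RankOne
import Cfsg.Agent.Lib.Chev.Simple

/-!
# The involution `y r t ↦ y (-r) (-t)` of Steinberg's presented group

Its existence rests on a symmetry of the table of commutator terms, `NegOK`. Applying it to the transfer lemma for
positive roots gives the transfer lemma for negative roots.
-/

set_option autoImplicit false

namespace Cfsg.Agent.Lib.ChevCov

open Cfsg.Lie Matrix Cfsg.Agent.Lib.Chev
open Cfsg.Agent.Lib.ChevPres (NegOK negTerm negWord commWord_neg neg_ne_of)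

variable {K : Type*} [Field K]

variable {T : Tabs} {X : Extra} {R : RootTab} {D : ChevalleyDatum} (hF : Full T X R D)

include hF in
/-- The relators hold for the images. -/
theorem neg_rels (hN : NegOK D) : ∀ g ∈ D.steinbergRelsAB K,
    FreeGroup.lift (fun p : Fin D.nroots × K => D.scGen K (D.neg p.1) (-p.2)) g = 1 := by
  set f := (fun p : Fin D.nroots × K => D.scGen K (D.neg p.1) (-p.2)) with hf
  have hX : ∀ {r : ℕ} (_ : r < D.nroots) (t : K), FreeGroup.lift f (D.stX r t) = D.scGen K (D.neg r) (-t) := by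
    intro r hr t
    unfold ChevalleyDatum.stX
    rw [dif_pos hr, FreeGroup.lift_apply_of]
  have hW : ∀ (L : List (ℕ × K)) (_ : ∀ p ∈ L, p.1 < D.nroots),
      FreeGroup.lift f (D.stWord L) = wb D K (negWord D L) := by
    intro L hL
    induction L with
    | nil => simp [ChevalleyDatum.stWord, negWord, wb]
    | cons p L ih =>
      have h1 : D.stWord (p :: L) = D.stX p.1 p.2 * D.stWord L := by
        simp [ChevalleyDatum.stWord]
      rw [h1, map_mul, hX (hL p List.mem_cons_self), ih (fun q hq => hL q (List.mem_cons_of_mem _ hq))]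
      simp [negWord, wb]
  rintro g (⟨r, t₁, t₂, hr, rfl⟩ | ⟨r, s, t, u, hr, hs, h1, h2, rfl⟩)
  · rw [map_mul, map_mul, map_inv, hX hr, hX hr, hX hr, yb_add, neg_add]
    simp
  · rw [map_mul, map_mul, map_mul, map_mul, map_inv, map_inv, map_inv, hX hr, hX hs,
      hW _ (commWord_lt hF hr hs h1 h2 t u), ← commWord_neg hN hr hs h1 h2 t u]
    have hn := hF.neg_lt hr
    have hn' := hF.neg_lt hs
    have h3 := yb_comm D hn hn' (neg_ne_of hF hr hs h1) (by
      rw [hF.neg_neg hr]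
      intro h4
      apply h2
      rw [← h4, hF.neg_neg hs]) (-t) (-u)
    rw [mul_inv_eq_one]
    have h4 : (D.scGen K (D.neg s) (-u))⁻¹ * (D.scGen K (D.neg r) (-t))⁻¹ * D.scGen K (D.neg s) (-u) *
        D.scGen K (D.neg r) (-t) = (D.scGen K (D.neg s) (-u))⁻¹ * (D.scGen K (D.neg r) (-t))⁻¹ *
        (D.scGen K (D.neg s) (-u) * D.scGen K (D.neg r) (-t)) := by group
    rw [h4, h3]
    group

/-- The involution. -/
noncomputable def negAut (hN : NegOK D) : D.SteinbergCover K →* D.SteinbergCover K :=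
  PresentedGroup.toGroup (f := fun p : Fin D.nroots × K => D.scGen K (D.neg p.1) (-p.2)) (neg_rels hF hN)

theorem negAut_y (hN : NegOK D) {r : ℕ} (hr : r < D.nroots) (t : K) :
    negAut hF hN (D.scGen K r t) = D.scGen K (D.neg r) (-t) := by
  have h : D.scGen K r t = PresentedGroup.of (rels := D.steinbergRelsAB K) ((⟨r, hr⟩, t) : Fin D.nroots × K) := by
    unfold ChevalleyDatum.scGen ChevalleyDatum.stX
    rw [dif_pos hr]
    rfl
  rw [h]
  exact PresentedGroup.toGroup.of _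

theorem negAut_negAut (hN : NegOK D) (g : D.SteinbergCover K) : negAut hF hN (negAut hF hN g) = g := by
  have h : (negAut (K := K) hF hN).comp (negAut hF hN) = MonoidHom.id _ := by
    apply PresentedGroup.ext
    rintro ⟨r, t⟩
    have h : PresentedGroup.of (rels := D.steinbergRelsAB K) ((r, t) : Fin D.nroots × K) = D.scGen K r t := by
      unfold ChevalleyDatum.scGen ChevalleyDatum.stX
      rw [dif_pos r.2]
      rfl
    rw [h, MonoidHom.comp_apply, negAut_y hF hN r.2, negAut_y hF hN (hF.neg_lt r.2), hF.neg_neg r.2, neg_neg]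
    rfl
  exact DFunLike.congr_fun h g

theorem negAut_nb (hN : NegOK D) {r : ℕ} (hr : r < D.nroots) (t : K) :
    negAut hF hN (nb D K r t) = nb D K (D.neg r) (-t) := by
  unfold nb
  rw [map_mul, map_mul, negAut_y hF hN hr, negAut_y hF hN (hF.neg_lt hr), hF.neg_neg hr, inv_neg, neg_neg]

theorem negAut_hb (hN : NegOK D) {r : ℕ} (hr : r < D.nroots) (t : K) :
    negAut hF hN (hb D K r t) = nb D K (D.neg r) (-t) * nb D K (D.neg r) 1 := by
  unfold hb
  rw [map_mul, negAut_nb hF hN hr, negAut_nb hF hN hr, neg_neg]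

theorem negAut_mem_Lb (hN : NegOK D) {i : ℕ} (hi : i < D.rank) {g : D.SteinbergCover K} (hg : g ∈ Lb D K i) :
    negAut hF hN g ∈ Lb D K i := by
  have hp := hF.simple_lt hi
  unfold Lb rootClosureB at hg
  induction hg using Subgroup.closure_induction with
  | mem x hx =>
    obtain ⟨r, t, (rfl | rfl), rfl⟩ := hx
    · rw [negAut_y hF hN hp]
      exact y_mem_rootClosureB (Or.inr rfl) _
    · rw [negAut_y hF hN (hF.neg_lt hp), hF.neg_neg hp]
      exact y_mem_rootClosureB (Or.inl rfl) _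
  | one => rw [map_one]; exact Subgroup.one_mem _
  | mul x y _ _ hx hy => rw [map_mul]; exact Subgroup.mul_mem _ hx hy
  | inv x _ hx => rw [map_inv]; exact Subgroup.inv_mem _ hx

/-! ### `SL₂` in the Chevalley group -/

include hF in
/-- `n_{-r}(-τ) = n_r(τ⁻¹)` in the Chevalley group. -/
theorem nG_neg_root {r : ℕ} (hr : r < D.nroots) {τ : K} (hτ : τ ≠ 0) :
    hF.c.nG (D.neg r) (-τ) = hF.c.nG r τ⁻¹ := by
  obtain ⟨φ, -, h⟩ := hF.exists_sl2_hom (F := K) hr
  have hx : ∀ t : K, φ (SL2.x0 t) = hF.c.xG r t := fun t => Units.ext ((h _ t).1 rfl)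
  have hy : ∀ t : K, φ (SL2.y0 t) = hF.c.xG (D.neg r) t := fun t => Units.ext ((h _ t).2 rfl)
  have key : SL2.y0 (-τ) * SL2.x0 τ⁻¹ * SL2.y0 (-τ) = SL2.x0 τ⁻¹ * SL2.y0 (-τ) * SL2.x0 τ⁻¹ := by
    apply SL2.ext4 <;> simp [SL2.mul_a, SL2.mul_b, SL2.mul_c, SL2.mul_d, hτ]
  have h1 := congrArg φ key
  simp only [map_mul, hx, hy] at h1
  unfold Checks.nG
  rw [hF.neg_neg hr, inv_neg, neg_neg, inv_inv]
  exact h1

/-! ### Negative roots -/

include hF in
theorem upQ_neg {i s : ℕ} (hi : i < D.rank) (hs : s < R.N) (hne : s ≠ D.neg (D.simple i)) :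
    Full.UpQ D i (D.neg s) := by
  have h2 := hF.two
  have hs' : s < D.nroots := by omega
  refine ⟨(hF.isPos_iff).2 ⟨hF.neg_lt hs', hF.neg_ge_N hs⟩, ?_⟩
  intro h
  apply hne
  rw [← h, hF.neg_neg hs']

include hF in
theorem upQ_wf {i s : ℕ} (hi : i < D.rank) (hs : Full.UpQ D i s) : Full.UpQ D i (X.wf i s) := by
  have h1 := (hF.isPos_iff).1 hs.1
  have h2 := hF.wf_pos h1.1 h1.2 hi hs.2
  exact ⟨(hF.isPos_iff).2 ⟨hF.wf_lt hi h1.1, h2.1⟩, h2.2⟩

include hF in
/-- `n̄_i` on positive roots other than `p_i`. -/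
theorem nb_conj_pos {i s : ℕ} (hi : i < D.rank) (hs : Full.UpQ D i s) (v : K) :
    nb D K (D.simple i) 1 * D.scGen K s v * (nb D K (D.simple i) 1)⁻¹ =
      D.scGen K (X.wf i s) (((X.eta i s : ℤ) : K) * v) := by
  have h1 := (hF.isPos_iff).1 hs.1
  apply transfer_pos hF hi (nb_mem_Lb 1) hs (upQ_wf hF hi hs)
  rw [theta_nb hF (hF.simple_lt hi)]
  exact hF.nS_conj_xG hi h1.1 v

include hF in
/-- `n̄_i` on negative roots other than `-p_i`. -/
theorem nb_conj_neg (hN : NegOK D) {i s : ℕ} (hi : i < D.rank) (hs : s < R.N) (hne : s ≠ D.neg (D.simple i)) (v : K) :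
    nb D K (D.simple i) 1 * D.scGen K s v * (nb D K (D.simple i) 1)⁻¹ =
      D.scGen K (X.wf i s) (((X.eta i s : ℤ) : K) * v) := by
  have h2 := hF.two
  have hs' : s < D.nroots := by omega
  have hp := hF.simple_lt hi
  have hq := upQ_neg hF hi hs hne
  have hq' := (hF.isPos_iff).1 hq.1
  -- the element `f n̄_i`
  have hL : negAut hF hN (nb D K (D.simple i) 1) ∈ Lb D K i := negAut_mem_Lb hF hN hi (nb_mem_Lb 1)
  have hθ : theta hF (negAut hF hN (nb D K (D.simple i) 1)) = hF.nS i := by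
    rw [negAut_nb hF hN hp, theta_nb hF (hF.neg_lt hp), nG_neg_root hF hp one_ne_zero, inv_one]
    rfl
  have h3 := transfer_pos hF hi hL hq (upQ_wf hF hi hq) (v := -v)
    (v' := ((X.eta i (D.neg s) : ℤ) : K) * (-v)) (by
      rw [hθ]
      exact hF.nS_conj_xG hi hq'.1 _)
  have h4 := congrArg (negAut hF hN) h3
  rw [map_mul, map_mul, map_inv, negAut_negAut, negAut_y hF hN hq'.1, negAut_y hF hN (hF.wf_lt hi hq'.1),
    hF.neg_neg hs', neg_neg, ← hF.wf_neg hi hq'.1, hF.neg_neg hs', hF.eta_neg hi hs', mul_neg, neg_neg] at h4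
  exact h4

include hF in
/-- `h̄_i(c)` on positive roots other than `p_i`. -/
theorem hb_conj_pos {i s : ℕ} (hi : i < D.rank) (hs : Full.UpQ D i s) (c : Kˣ) (v : K) :
    hb D K (D.simple i) c * D.scGen K s v * (hb D K (D.simple i) c)⁻¹ =
      D.scGen K s (((c ^ D.cartan i s : Kˣ) : K) * v) := by
  have h1 := (hF.isPos_iff).1 hs.1
  apply transfer_pos hF hi (hb_mem_Lb _) hs hs
  rw [theta_hb hF (hF.simple_lt hi), hF.hSimple_eq_tor ⟨i, hi⟩ c, hF.tor_conj_xG _ h1.1, hF.mulSingle_chiT]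

include hF in
/-- `h̄_i(c)` on negative roots other than `-p_i`. -/
theorem hb_conj_neg (hN : NegOK D) {i s : ℕ} (hi : i < D.rank) (hs : s < R.N) (hne : s ≠ D.neg (D.simple i))
    (c : Kˣ) (v : K) :
    hb D K (D.simple i) c * D.scGen K s v * (hb D K (D.simple i) c)⁻¹ =
      D.scGen K s (((c ^ D.cartan i s : Kˣ) : K) * v) := by
  have h2 := hF.two
  have hs' : s < D.nroots := by omega
  have hp := hF.simple_lt hi
  have hq := upQ_neg hF hi hs hne
  have hq' := (hF.isPos_iff).1 hq.1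
  have hL : negAut hF hN (hb D K (D.simple i) c) ∈ Lb D K i := negAut_mem_Lb hF hN hi (hb_mem_Lb _)
  have hθ : theta hF (negAut hF hN (hb D K (D.simple i) c)) = hF.c.hG (D.simple i) ((c⁻¹ : Kˣ) : K) := by
    rw [negAut_hb hF hN hp, map_mul, theta_nb hF (hF.neg_lt hp), theta_nb hF (hF.neg_lt hp),
      nG_neg_root hF hp c.ne_zero]
    have h4 : hF.c.nG (D.neg (D.simple i)) (1 : K) = hF.c.nG (D.simple i) (-1) := by
      have := nG_neg_root hF hp (neg_ne_zero.2 (one_ne_zero (α := K)))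
      rw [neg_neg, inv_neg, inv_one] at this
      exact this
    rw [h4, Units.val_inv_eq_inv_val]
    rfl
  have h3 := transfer_pos hF hi hL hq hq (v := -v)
    (v' := (((c⁻¹ : Kˣ) ^ D.cartan i (D.neg s) : Kˣ) : K) * (-v)) (by
      rw [hθ, hF.hSimple_eq_tor ⟨i, hi⟩ c⁻¹, hF.tor_conj_xG _ hq'.1, hF.mulSingle_chiT])
  have h4 := congrArg (negAut hF hN) h3
  rw [map_mul, map_mul, map_inv, negAut_negAut, negAut_y hF hN hq'.1, negAut_y hF hN hq'.1,
    hF.neg_neg hs', neg_neg, mul_neg, neg_neg, hF.cartan_neg hs' hi, _root_.inv_zpow', neg_neg] at h4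
  exact h4

end Cfsg.Agent.Lib.ChevCov
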