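import Cfsg.Prelude.Def_SteinbergCover
import Cfsg.Agent.Lib.ChevPresTab
import Cfsg.Agent.Lib.Chev.Prod
import Cfsg.Agent.Lib.Chev.BN
import Cfsg.Agent.Lib.Chev.Opp

/-!
# Steinberg's presented group: relations, the map to the Chevalley group, the unipotent part

`Ḡ = D.SteinbergCover K`, generated by `y r t = D.scGen K r t`.

* the relations `(R1)`, `(R2)`, `(R3)` in usable form;
* `theta hF : Ḡ →* GL`, `y r t ↦ x_r(t)`;
* `theta` is injective on the subgroup generated by the positive root elements;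
* the transfer lemma: if `g ∈ ⟨y (±p_i) _⟩` conjugates, in `GL`, `x_s(v)` into `x_{s'}(v')` for `s, s'` positive roots
  other than `p_i`, then the same holds in `Ḡ`.
-/

set_option autoImplicit false

namespace Cfsg.Agent.Lib.ChevCov

open Cfsg.Lie Matrix Cfsg.Agent.Lib.Chev

section Basic

variable (D : ChevalleyDatum) (K : Type*) [Field K]

/-- The element of `Ḡ` of a word in the generators. -/
noncomputable def wb (L : List (ℕ × K)) : D.SteinbergCover K := (L.map fun p => D.scGen K p.1 p.2).prod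

/-- `n̄_r(t)`. -/
noncomputable def nb (r : ℕ) (t : K) : D.SteinbergCover K :=
  D.scGen K r t * D.scGen K (D.neg r) (-t⁻¹) * D.scGen K r t

/-- `h̄_r(t)`. -/
noncomputable def hb (r : ℕ) (t : K) : D.SteinbergCover K := nb D K r t * nb D K r (-1)

variable {K}

theorem wb_nil : wb D K [] = 1 := rfl

theorem wb_cons (p : ℕ × K) (L : List (ℕ × K)) :
    wb D K (p :: L) = D.scGen K p.1 p.2 * wb D K L := by
  simp [wb]

theorem wb_append (L L' : List (ℕ × K)) : wb D K (L ++ L') = wb D K L * wb D K L' := by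
  simp [wb]

theorem mk_stWord (L : List (ℕ × K)) :
    PresentedGroup.mk (D.steinbergRelsAB K) (D.stWord L) = wb D K L := by
  unfold ChevalleyDatum.stWord wb
  rw [map_list_prod, List.map_map]
  rfl

theorem mk_stH (r : ℕ) (t : K) :
    PresentedGroup.mk (D.steinbergRelsAB K) (D.stH r t) = hb D K r t := by
  unfold ChevalleyDatum.stH
  rw [mk_stWord]
  simp only [ChevalleyDatum.hWord, ChevalleyDatum.nWord, wb, hb, nb, List.cons_append, List.nil_append,
    List.map_cons, List.map_nil, List.prod_cons, List.prod_nil, mul_one, mul_assoc]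

theorem stGen_of_ge {r : ℕ} (hr : ¬ r < D.nroots) (t : K) : D.scGen K r t = 1 := by
  unfold ChevalleyDatum.scGen ChevalleyDatum.stX
  rw [dif_neg hr, map_one]

theorem yb_add (r : ℕ) (s t : K) : D.scGen K r s * D.scGen K r t = D.scGen K r (s + t) := by
  by_cases hr : r < D.nroots
  · have h : D.stX r s * D.stX r t * (D.stX r (s + t))⁻¹ ∈ D.steinbergRelsAB K :=
      Or.inl ⟨r, s, t, hr, rfl⟩
    have h1 := PresentedGroup.one_of_mem h
    rw [map_mul, map_mul, map_inv] at h1
    exact mul_inv_eq_one.1 h1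
  · simp [stGen_of_ge D hr]

@[simp] theorem yb_zero (r : ℕ) : D.scGen K r 0 = 1 := by
  have := yb_add D r (0 : K) 0
  rw [add_zero] at this
  exact mul_eq_left.1 this

theorem yb_inv (r : ℕ) (t : K) : (D.scGen K r t)⁻¹ = D.scGen K r (-t) := by
  apply inv_eq_of_mul_eq_one_right
  rw [yb_add, add_neg_cancel, yb_zero]

theorem yb_comm {r s : ℕ} (hr : r < D.nroots) (hs : s < D.nroots) (h1 : s ≠ r) (h2 : s ≠ D.neg r) (t u : K) :
    D.scGen K s u * D.scGen K r t = D.scGen K r t * D.scGen K s u * wb D K (D.commWord K r s t u) := by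
  have h : (D.stX s u)⁻¹ * (D.stX r t)⁻¹ * D.stX s u * D.stX r t * (D.stWord (D.commWord K r s t u))⁻¹ ∈
      D.steinbergRelsAB K := Or.inr ⟨r, s, t, u, hr, hs, h1, h2, rfl⟩
  have h3 := PresentedGroup.one_of_mem h
  rw [map_mul, map_mul, map_mul, map_mul, map_inv, map_inv, map_inv, mk_stWord] at h3
  have h4 := mul_inv_eq_one.1 h3
  rw [← h4]
  change D.scGen K s u * D.scGen K r t = D.scGen K r t * D.scGen K s u *
    ((D.scGen K s u)⁻¹ * (D.scGen K r t)⁻¹ * D.scGen K s u * D.scGen K r t)
  group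

/-- The conjugate of `y s u` by `y r t`. -/
theorem yb_conj {r s : ℕ} (hr : r < D.nroots) (hs : s < D.nroots) (h1 : s ≠ r) (h2 : s ≠ D.neg r)
    (t u : K) :
    D.scGen K r t * D.scGen K s u * (D.scGen K r t)⁻¹ =
      D.scGen K s u * wb D K (D.commWord K r s (-t) u) := by
  have h3 := yb_comm D hr hs h1 h2 (-t) u
  rw [← yb_inv] at h3
  calc D.scGen K r t * D.scGen K s u * (D.scGen K r t)⁻¹
      = D.scGen K r t * (D.scGen K s u * (D.scGen K r t)⁻¹) := by group
    _ = D.scGen K r t * ((D.scGen K r t)⁻¹ * D.scGen K s u * wb D K (D.commWord K r s (-t) u)) := by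
        rw [h3]
    _ = _ := by group

/-! ### `n̄` and `h̄` -/

theorem nb_neg_param (r : ℕ) (t : K) : nb D K r (-t) = (nb D K r t)⁻¹ := by
  unfold nb
  rw [inv_neg, neg_neg, _root_.mul_inv_rev, _root_.mul_inv_rev, yb_inv, yb_inv, neg_neg, mul_assoc]

theorem hb_eq (r : ℕ) (t : K) : hb D K r t = nb D K r t * (nb D K r 1)⁻¹ := by
  unfold hb
  rw [nb_neg_param]

theorem nb_eq_hb_mul (r : ℕ) (t : K) : nb D K r t = hb D K r t * nb D K r 1 := by
  rw [hb_eq]; group

theorem hb_one (r : ℕ) : hb D K r 1 = 1 := by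
  rw [hb_eq]; group

end Basic

/-! ### The map to the Chevalley group -/

variable {K : Type*} [Field K]

variable {T : Tabs} {X : Extra} {R : RootTab} {D : ChevalleyDatum} (hF : Full T X R D)

theorem lift_stX (f : Fin D.nroots × K → GL D.Idx K) (hf : ∀ (r : Fin D.nroots) (t : K), f (r, t) = hF.c.xG r t)
    {r : ℕ} (hr : r < D.nroots) (t : K) : FreeGroup.lift f (D.stX r t) = hF.c.xG r t := by
  unfold ChevalleyDatum.stX
  rw [dif_pos hr, FreeGroup.lift_apply_of]
  exact hf ⟨r, hr⟩ t

theorem lift_stWord (f : Fin D.nroots × K → GL D.Idx K) (hf : ∀ (r : Fin D.nroots) (t : K), f (r, t) = hF.c.xG r t)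
    (L : List (ℕ × K)) (hL : ∀ p ∈ L, p.1 < D.nroots) :
    FreeGroup.lift f (D.stWord L) = hF.c.wordG L := by
  induction L with
  | nil => simp [ChevalleyDatum.stWord, Checks.wordG]
  | cons p L ih =>
    have h1 : D.stWord (p :: L) = D.stX p.1 p.2 * D.stWord L := by
      simp [ChevalleyDatum.stWord]
    rw [h1, map_mul, lift_stX hF f hf (hL p List.mem_cons_self),
      ih (fun q hq => hL q (List.mem_cons_of_mem _ hq)), Checks.wordG_cons]

include hF in
theorem commWord_lt {r s : ℕ} (hr : r < D.nroots) (hs : s < D.nroots) (h1 : s ≠ r) (h2 : s ≠ D.neg r) (t u : K) :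
    ∀ p ∈ D.commWord K r s t u, p.1 < D.nroots := by
  intro p hp
  simp only [ChevalleyDatum.commWord, List.mem_map] at hp
  obtain ⟨c, hc, rfl⟩ := hp
  exact (hF.commTerms_spec hr hs h1 h2 hc).1

/-- The homomorphism `Ḡ → GL`, `y r t ↦ x_r(t)`. -/
noncomputable def theta : D.SteinbergCover K →* GL D.Idx K :=
  PresentedGroup.toGroup (f := fun p : Fin D.nroots × K => hF.c.xG p.1 p.2) (by
    have hf : ∀ (r : Fin D.nroots) (t : K), (fun p : Fin D.nroots × K => hF.c.xG p.1 p.2) (r, t) = hF.c.xG r t :=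
      fun _ _ => rfl
    rintro g (⟨r, t₁, t₂, hr, rfl⟩ | ⟨r, s, t, u, hr, hs, h1, h2, rfl⟩)
    · rw [map_mul, map_mul, map_inv, lift_stX hF _ hf hr, lift_stX hF _ hf hr, lift_stX hF _ hf hr,
        hF.c.xG_add]
      simp
    · rw [map_mul, map_mul, map_mul, map_mul, map_inv, map_inv, map_inv, lift_stX hF _ hf hr,
        lift_stX hF _ hf hs, lift_stWord hF _ hf _ (commWord_lt hF hr hs h1 h2 t u)]
      have h3 := hF.xG_comm hr hs h1 h2 t u
      rw [mul_inv_eq_one]
      have h4 : (hF.c.xG s u)⁻¹ * (hF.c.xG r t)⁻¹ * hF.c.xG s u * hF.c.xG r t =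
          (hF.c.xG s u)⁻¹ * (hF.c.xG r t)⁻¹ * (hF.c.xG s u * hF.c.xG r t) := by group
      rw [h4, h3]
      group)

theorem theta_y {r : ℕ} (hr : r < D.nroots) (t : K) : theta hF (D.scGen K r t) = hF.c.xG r t := by
  have h : D.scGen K r t = PresentedGroup.of (rels := D.steinbergRelsAB K) ((⟨r, hr⟩, t) : Fin D.nroots × K) := by
    unfold ChevalleyDatum.scGen ChevalleyDatum.stX
    rw [dif_pos hr]
    rfl
  rw [h]
  exact PresentedGroup.toGroup.of _

theorem theta_wb (L : List (ℕ × K)) (hL : ∀ p ∈ L, p.1 < D.nroots) :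
    theta hF (wb D K L) = hF.c.wordG L := by
  induction L with
  | nil => simp [wb, Checks.wordG]
  | cons p L ih =>
    rw [wb_cons, map_mul, theta_y hF (hL p List.mem_cons_self),
      ih (fun q hq => hL q (List.mem_cons_of_mem _ hq)), Checks.wordG_cons]

theorem theta_nb {r : ℕ} (hr : r < D.nroots) (t : K) : theta hF (nb D K r t) = hF.c.nG r t := by
  unfold nb Checks.nG
  rw [map_mul, map_mul, theta_y hF hr, theta_y hF (hF.neg_lt hr)]

theorem theta_hb {r : ℕ} (hr : r < D.nroots) (t : K) : theta hF (hb D K r t) = hF.c.hG r t := by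
  unfold hb Checks.hG
  rw [map_mul, theta_nb hF hr, theta_nb hF hr]

/-- Any homomorphism with the right values on generators is `theta`. -/
theorem theta_unique (φ : D.SteinbergCover K →* GL D.Idx K)
    (hφ : ∀ (r : ℕ) (t : K), r < D.nroots → φ (D.scGen K r t) = hF.c.xG r t) : φ = theta hF := by
  apply PresentedGroup.ext
  rintro ⟨r, t⟩
  have h : PresentedGroup.of (rels := D.steinbergRelsAB K) ((r, t) : Fin D.nroots × K) = D.scGen K r t := by
    unfold ChevalleyDatum.scGen ChevalleyDatum.stX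
    rw [dif_pos r.2]
    rfl
  rw [h, hφ _ _ r.2, theta_y hF r.2]

/-! ### The subgroups generated by root elements -/

/-- The subgroup of `Ḡ` generated by the root elements of a set of roots. -/
def rootClosureB (D : ChevalleyDatum) (K : Type*) [Field K] (Q : ℕ → Prop) : Subgroup (D.SteinbergCover K) :=
  Subgroup.closure {g | ∃ (s : ℕ) (t : K), Q s ∧ g = D.scGen K s t}

theorem y_mem_rootClosureB {Q : ℕ → Prop} {s : ℕ} (hs : Q s) (t : K) :
    D.scGen K s t ∈ rootClosureB D K Q :=
  Subgroup.subset_closure ⟨s, t, hs, rfl⟩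

theorem wb_mem {S : Subgroup (D.SteinbergCover K)} (L : List (ℕ × K))
    (h : ∀ p ∈ L, D.scGen K p.1 p.2 ∈ S) : wb D K L ∈ S := by
  induction L with
  | nil => exact S.one_mem
  | cons p L ih =>
    rw [wb_cons]
    exact S.mul_mem (h p List.mem_cons_self) (ih (fun q hq => h q (List.mem_cons_of_mem _ hq)))

/-- Root elements normalising a subgroup generated by root elements -/
theorem yb_mem_normalizer {r : ℕ} (hr : r < D.nroots) (Q : ℕ → Prop)
    (hQ : ∀ s, Q s → s < D.nroots ∧ s ≠ D.neg r)
    (hterm : ∀ s, Q s → s ≠ r → ∀ c ∈ D.commTerms r s, Q c.1) (t : K) :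
    D.scGen K r t ∈ Subgroup.normalizer (rootClosureB D K Q : Set (D.SteinbergCover K)) := by
  have key : ∀ (t : K) (g : D.SteinbergCover K), (∃ (s : ℕ) (u : K), Q s ∧ g = D.scGen K s u) →
      D.scGen K r t * g * (D.scGen K r t)⁻¹ ∈ rootClosureB D K Q := by
    rintro t g ⟨s, u, hs, rfl⟩
    by_cases hsr : s = r
    · subst hsr
      rw [yb_inv, yb_add, yb_add]
      have : t + u + -t = u := by ring
      rw [this]
      exact y_mem_rootClosureB hs u
    · rw [yb_conj D hr (hQ s hs).1 hsr (hQ s hs).2]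
      refine Subgroup.mul_mem _ (y_mem_rootClosureB hs u) ?_
      apply wb_mem
      intro p hp
      simp only [ChevalleyDatum.commWord, List.mem_map] at hp
      obtain ⟨c, hc, rfl⟩ := hp
      exact y_mem_rootClosureB (hterm s hs hsr c hc) _
  apply GroupLem.mem_normalizer_closure
  · intro g hg
    exact key t g hg
  · intro g hg
    have := key (-t) g hg
    rw [← yb_inv, inv_inv] at this
    exact this

/-! ### `theta` is injective on the positive part -/

/-- The subgroup generated by root elements of roots at least `k`. -/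
def Ubk (D : ChevalleyDatum) (K : Type*) [Field K] (k : ℕ) : Subgroup (D.SteinbergCover K) :=
  rootClosureB D K (fun s => k ≤ s ∧ s < D.nroots)

/-- The ordered product of root elements over `k ≤ r < n`. -/
noncomputable def ordb (D : ChevalleyDatum) (k : ℕ) (t : ℕ → K) : D.SteinbergCover K :=
  wb D K ((List.range' k (D.nroots - k)).map fun r => (r, t r))

theorem ordb_of_ge {k : ℕ} (h : D.nroots ≤ k) (t : ℕ → K) : ordb D k t = 1 := by
  have : D.nroots - k = 0 := by omega
  simp [ordb, this, wb_nil]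

theorem ordb_succ {k : ℕ} (h : k < D.nroots) (t : ℕ → K) :
    ordb D k t = D.scGen K k (t k) * ordb D (k + 1) t := by
  have : D.nroots - k = (D.nroots - (k + 1)) + 1 := by omega
  unfold ordb
  rw [this, List.range'_succ, List.map_cons, wb_cons]

theorem ordb_congr {k : ℕ} {t t' : ℕ → K} (h : ∀ r, k ≤ r → r < D.nroots → t r = t' r) :
    ordb D k t = ordb D k t' := by
  unfold ordb
  congr 1
  apply List.map_congr_left
  intro r hr
  rw [List.mem_range'_1] at hr
  rw [h r hr.1 (by omega)]

theorem ordb_zero (k : ℕ) : ordb D k (0 : ℕ → K) = 1 := by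
  unfold ordb
  generalize List.range' k (D.nroots - k) = L
  induction L with
  | nil => rfl
  | cons a L ih =>
    rw [List.map_cons, wb_cons, ih]
    simp

theorem ordb_mem (k : ℕ) (t : ℕ → K) : ordb D k t ∈ Ubk D K k := by
  apply wb_mem
  intro p hp
  simp only [List.mem_map, List.mem_range'_1] at hp
  obtain ⟨r, hr, rfl⟩ := hp
  exact y_mem_rootClosureB ⟨hr.1, by omega⟩ _

theorem Ubk_anti {k m : ℕ} (h : k ≤ m) : Ubk D K m ≤ Ubk D K k := by
  apply Subgroup.closure_mono
  rintro g ⟨s, t, hs, hg⟩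
  exact ⟨s, t, ⟨by omega, hs.2⟩, hg⟩

include hF in
/-- Every element of `Ū_k` is an ordered product. -/
theorem exists_ordb : ∀ (m k : ℕ), k + m = D.nroots → R.N ≤ k → ∀ g ∈ Ubk D K k,
    ∃ t : ℕ → K, g = ordb D k t := by
  intro m
  induction m with
  | zero =>
    intro k hk _ g hg
    have h1 : Ubk D K k = ⊥ := by
      unfold Ubk rootClosureB
      rw [Subgroup.closure_eq_bot_iff]
      rintro x ⟨s, t, hs, _⟩
      omega
    rw [h1, Subgroup.mem_bot] at hg
    exact ⟨0, by rw [hg, ordb_of_ge (by omega)]⟩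
  | succ m ih =>
    intro k hk hkN g hg
    have hkn : k < D.nroots := by omega
    have hIH := ih (k + 1) (by omega) (by omega)
    -- closure under left multiplication
    have key : ∀ (s : ℕ) (u : K), k ≤ s → s < D.nroots → ∀ y, (∃ t, y = ordb D k t) →
        ∃ t, D.scGen K s u * y = ordb D k t := by
      rintro s u hs1 hs2 y ⟨t, rfl⟩
      rw [ordb_succ hkn]
      by_cases hsk : s = k
      · subst hsk
        refine ⟨Function.update t s (u + t s), ?_⟩
        rw [ordb_succ hkn, Function.update_self, ← mul_assoc, yb_add]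
        congr 1
        apply ordb_congr
        intro r hr _
        rw [Function.update_of_ne (by omega)]
      · have hsk' : s ≠ D.neg k := by
          have := hF.neg_lt_N hkn hkN
          omega
        have h1 := yb_comm D hkn hs2 hsk hsk' (t k) u
        have hmem : D.scGen K s u * wb D K (D.commWord K k s (t k) u) * ordb D (k + 1) t ∈ Ubk D K (k + 1) := by
          refine Subgroup.mul_mem _ (Subgroup.mul_mem _ (y_mem_rootClosureB ⟨by omega, hs2⟩ _) ?_)
            (ordb_mem _ _)
          apply wb_mem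
          intro p hp
          simp only [ChevalleyDatum.commWord, List.mem_map] at hp
          obtain ⟨c, hc, rfl⟩ := hp
          have h2 := hF.commTerm_pos hkn hs2 hsk hsk' hc hkN (by omega)
          have h3 := hF.commTerms_spec hkn hs2 hsk hsk' hc
          exact y_mem_rootClosureB ⟨by omega, h3.1⟩ _
        obtain ⟨t', ht'⟩ := hIH _ hmem
        refine ⟨Function.update t' k (t k), ?_⟩
        rw [ordb_succ hkn, Function.update_self]
        have h4 : ordb D (k + 1) (Function.update t' k (t k)) = ordb D (k + 1) t' := by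
          apply ordb_congr
          intro r hr _
          rw [Function.update_of_ne (by omega)]
        rw [h4, ← ht', ← mul_assoc, h1]
        group
    unfold Ubk rootClosureB at hg
    induction hg using Subgroup.closure_induction_left with
    | one => exact ⟨0, (ordb_zero k).symm⟩
    | mul_left x hx y hy ih' =>
      obtain ⟨s, u, hs, rfl⟩ := hx
      exact key s u hs.1 hs.2 y ih'
    | inv_mul_cancel x hx y hy ih' =>
      obtain ⟨s, u, hs, rfl⟩ := hx
      rw [yb_inv]
      exact key s (-u) hs.1 hs.2 y ih'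

theorem theta_ordb (k : ℕ) (t : ℕ → K) : theta hF (ordb D k t) = hF.ordW k t := by
  unfold ordb Full.ordW
  apply theta_wb
  intro p hp
  simp only [List.mem_map, List.mem_range'_1] at hp
  obtain ⟨r, hr, rfl⟩ := hp
  show r < D.nroots
  omega

/-- The positive unipotent subgroup `Ū` of `Ḡ`. -/
def Ub (R : RootTab) (D : ChevalleyDatum) (K : Type*) [Field K] : Subgroup (D.SteinbergCover K) := Ubk D K R.N

/-- `theta` is injective on `Ū`. -/
theorem theta_inj_U {g g' : D.SteinbergCover K} (hg : g ∈ Ub R D K) (hg' : g' ∈ Ub R D K)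
    (h : theta hF g = theta hF g') : g = g' := by
  have h2 := hF.two
  obtain ⟨t, rfl⟩ := exists_ordb hF R.N R.N (by omega) le_rfl g hg
  obtain ⟨t', rfl⟩ := exists_ordb hF R.N R.N (by omega) le_rfl g' hg'
  rw [theta_ordb, theta_ordb] at h
  have h5 := hF.ordW_inj R.N R.N (by omega) le_rfl t t' h
  exact ordb_congr h5

/-! ### The transfer lemma -/

/-- The subgroup of `Ḡ` of the positive roots other than `p_i`. -/
def Upb (D : ChevalleyDatum) (K : Type*) [Field K] (i : ℕ) : Subgroup (D.SteinbergCover K) :=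
  rootClosureB D K (Full.UpQ D i)

/-- The subgroup generated by the root elements of `±p_i`. -/
def Lb (D : ChevalleyDatum) (K : Type*) [Field K] (i : ℕ) : Subgroup (D.SteinbergCover K) :=
  rootClosureB D K (fun r => r = D.simple i ∨ r = D.neg (D.simple i))

include hF in
theorem Upb_le_Ub (i : ℕ) : Upb D K i ≤ Ub R D K := by
  unfold Upb rootClosureB Ub Ubk rootClosureB
  apply Subgroup.closure_mono
  rintro g ⟨s, t, hs, rfl⟩
  have := (hF.isPos_iff).1 hs.1
  exact ⟨s, t, ⟨this.2, this.1⟩, rfl⟩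

include hF in
theorem yp_mem_normalizer {i : ℕ} (hi : i < D.rank) (t : K) :
    D.scGen K (D.simple i) t ∈ Subgroup.normalizer (Upb D K i : Set (D.SteinbergCover K)) := by
  have hp := hF.simple_lt hi
  apply yb_mem_normalizer hp
  · intro s hs
    have hs1 := (hF.isPos_iff).1 hs.1
    refine ⟨hs1.1, ?_⟩
    intro h
    have := hF.neg_lt_N hp (hF.simple_ge hi)
    omega
  · intro s hs hne c hc
    refine hF.Up_term hi (Or.inl rfl) hs ?_ hne hc
    intro h
    have hs1 := (hF.isPos_iff).1 hs.1
    have := hF.neg_lt_N hp (hF.simple_ge hi)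
    omega

include hF in
theorem ymp_mem_normalizer {i : ℕ} (hi : i < D.rank) (t : K) :
    D.scGen K (D.neg (D.simple i)) t ∈ Subgroup.normalizer (Upb D K i : Set (D.SteinbergCover K)) := by
  have hp := hF.simple_lt hi
  have hnn := hF.neg_neg hp
  apply yb_mem_normalizer (hF.neg_lt hp)
  · intro s hs
    have hs1 := (hF.isPos_iff).1 hs.1
    refine ⟨hs1.1, ?_⟩
    rw [hnn]
    exact hs.2
  · intro s hs hne c hc
    refine hF.Up_term hi (Or.inr rfl) hs ?_ hne hc
    rw [hnn]
    exact hs.2

include hF in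
theorem Lb_le_normalizer {i : ℕ} (hi : i < D.rank) :
    Lb D K i ≤ Subgroup.normalizer (Upb D K i : Set (D.SteinbergCover K)) := by
  unfold Lb rootClosureB
  rw [Subgroup.closure_le]
  rintro g ⟨r, t, (rfl | rfl), rfl⟩
  · exact yp_mem_normalizer hF hi t
  · exact ymp_mem_normalizer hF hi t

include hF in
/-- The transfer lemma for positive roots. -/
theorem transfer_pos {i : ℕ} (hi : i < D.rank) {g : D.SteinbergCover K} (hg : g ∈ Lb D K i)
    {s s' : ℕ} (hs : Full.UpQ D i s) (hs' : Full.UpQ D i s') {v v' : K}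
    (h : theta hF g * hF.c.xG s v * (theta hF g)⁻¹ = hF.c.xG s' v') :
    g * D.scGen K s v * g⁻¹ = D.scGen K s' v' := by
  apply theta_inj_U hF
  · apply Upb_le_Ub hF i
    exact (Subgroup.mem_set_normalizer_iff.1 (Lb_le_normalizer hF hi hg) _).1
      (y_mem_rootClosureB hs v)
  · apply Upb_le_Ub hF i
    exact y_mem_rootClosureB hs' v'
  · rw [map_mul, map_mul, map_inv, theta_y hF ((hF.isPos_iff).1 hs.1).1,
      theta_y hF ((hF.isPos_iff).1 hs'.1).1, h]

theorem nb_mem_Lb {i : ℕ} (t : K) : nb D K (D.simple i) t ∈ Lb D K i := by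
  unfold nb
  exact Subgroup.mul_mem _ (Subgroup.mul_mem _ (y_mem_rootClosureB (Or.inl rfl) _)
    (y_mem_rootClosureB (Or.inr rfl) _)) (y_mem_rootClosureB (Or.inl rfl) _)

theorem hb_mem_Lb {i : ℕ} (t : K) : hb D K (D.simple i) t ∈ Lb D K i :=
  Subgroup.mul_mem _ (nb_mem_Lb t) (nb_mem_Lb _)

end Cfsg.Agent.Lib.ChevCov
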