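import Cfsg.Agent.Lib.ChevCov.Univ

/-!
# Central extensions of a Chevalley group whose kernel has no torsion in the characteristic

If the kernel has no elements of order the characteristic `ℓ` of the field, then biadditive central commutators vanish,
additive lifts of root elements are unique, and the commutator relations hold for them.
-/

set_option autoImplicit false
set_option linter.unusedSectionVars false
set_option linter.unusedVariables false

namespace Cfsg.Agent.Lib.ChevCov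

open Cfsg Cfsg.Lie Matrix Cfsg.Agent.Lib.Chev Cfsg.Agent.Lib.ChevLift Cfsg.Agent.Lib.ChevLift.RD
  Cfsg.Agent.Lib.ChevLiftC Cfsg.Agent.Lib.ChevBL Cfsg.Agent.Lib.ChevStem Cfsg.Agent.Lib.ChevTorTab
  Cfsg.Agent.Lib.ChevTor Cfsg.Agent.Lib.ChevTor.TL Cfsg.Agent.Lib.StA Cfsg.Agent.Lib.ChevStRed
open scoped commutatorElement

/-! ### Torsion-free values -/

section General

variable {F : Type*} [Field F] {A : Type*} [Group A] {ℓ : ℕ}

/-- An additive map to elements without `ℓ`-torsion is trivial in characteristic `ℓ`. -/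
lemma tf_trivial (hℓ : (ℓ : F) = 0) (f : F → A) (hadd : ∀ a b, f (a + b) = f a * f b)
    (htf : ∀ a, f a ^ ℓ = 1 → f a = 1) (a : F) : f a = 1 := by
  apply htf
  have h0 : f 0 = 1 := by
    have := hadd 0 0
    rw [add_zero] at this
    exact mul_eq_left.mp this.symm
  have h1 : ∀ n : ℕ, f (n • a) = f a ^ n := by
    intro n
    induction n with
    | zero => simpa using h0
    | succ n ih => rw [succ_nsmul, hadd, ih, pow_succ]
  have h2 : ℓ • a = 0 := by
    rw [nsmul_eq_mul, hℓ, zero_mul]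
  rw [← h1, h2, h0]

/-- Additive lifts differing by central elements without `ℓ`-torsion coincide. -/
lemma uniq_add (hℓ : (ℓ : F) = 0) (Z : Subgroup A) (hZ : Z ≤ Subgroup.center A) (htf : ∀ z ∈ Z, z ^ ℓ = 1 → z = 1)
    {y y' : F → A} (ha : ∀ a b, y (a + b) = y a * y b) (ha' : ∀ a b, y' (a + b) = y' a * y' b)
    (hδ : ∀ t, (y' t)⁻¹ * y t ∈ Z) (t : F) : y t = y' t := by
  have h1 := tf_trivial hℓ (fun t => (y' t)⁻¹ * y t) (by
    intro a b
    show (y' (a + b))⁻¹ * y (a + b) = (y' a)⁻¹ * y a * ((y' b)⁻¹ * y b)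
    have e := Subgroup.mem_center_iff.mp (hZ (hδ a)) (y' b)⁻¹
    rw [ha, ha', mul_assoc ((y' a)⁻¹), ← mul_assoc (y a), ← mul_assoc ((y' a)⁻¹ ), _root_.mul_inv_rev]
    calc (y' b)⁻¹ * (y' a)⁻¹ * (y a * y b) = (y' b)⁻¹ * ((y' a)⁻¹ * y a) * y b := by group
      _ = (y' a)⁻¹ * y a * (y' b)⁻¹ * y b := by rw [e]
      _ = _ := by group) (fun a h => htf _ (hδ a) h) t
  exact (inv_mul_eq_one.mp h1).symm

end General

variable {T : Tabs} {X : Extra} {R : RootTab} {D : ChevalleyDatum} (hF : Full T X R D)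
variable {F : Type*} [Field F] {Γ : Type*} [Group Γ] {ℓ : ℕ}
  (p : Γ →* ↥(D.group F)) (hs : Function.Surjective p) (hc : p.ker ≤ Subgroup.center Γ)

/-- The characteristic of the field kills no element of the kernel. -/
structure TF (p : Γ →* ↥(D.group F)) (ℓ : ℕ) : Prop where
  char : (ℓ : F) = 0
  tf : ∀ z ∈ p.ker, z ^ ℓ = 1 → z = 1

variable {p}

include hc in
/-- Commuting root elements have commuting lifts. -/
lemma BB_tf (hTF : TF p ℓ) {r s : Fin D.nroots} (hC : ∀ a b, Commute ((rd hF F).X r a) ((rd hF F).X s b)) (a b : F) :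
    BB p hs ((rd hF F).X r a) ((rd hF F).X s b) = 1 := by
  have hk : ∀ x, BB p hs ((rd hF F).X r x) ((rd hF F).X s b) ∈ p.ker := by
    intro x
    rw [MonoidHom.mem_ker, map_BB, commutatorElement_eq_one_iff_commute.mpr (hC x b)]
  exact tf_trivial hTF.char (fun x => BB p hs ((rd hF F).X r x) ((rd hF F).X s b)) (by
    intro x x'
    show BB p hs ((rd hF F).X r (x + x')) _ = _
    rw [(rd hF F).X_add]
    exact BB_mul_left p hs hc (hC _ _) (hC _ _)) (fun x h => hTF.tf _ (hk x) h) a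

include hc in
/-- Additive lifts are canonical. -/
lemma TL_of_add (hTF : TF p ℓ) {Y : ℕ → F → Γ} (hm : ∀ r (hr : r < D.nroots) (t : F), p (Y r t) = (rd hF F).X ⟨r, hr⟩ t)
    (ha : ∀ r < D.nroots, ∀ a b, Y r (a + b) = Y r a * Y r b) : TL hF p Y := by
  have key : ∀ (r : Fin D.nroots) (y : F → Γ), (∀ a b, y (a + b) = y a * y b) → (∀ t, p (y t) = (rd hF F).X r t) →
      ∀ t, y t = Y r t := by
    intro r y hy hy' t
    refine uniq_add hTF.char p.ker hc hTF.tf hy (ha r r.2) ?_ t
    intro t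
    rw [MonoidHom.mem_ker, map_mul, map_inv, hy', hm r r.2]
    exact inv_mul_cancel _
  refine ⟨hm, ha, ?_, ?_⟩
  · intro e g hg r hr t
    have h1 := key ⟨r, hr⟩ (fun t => (g * Y r ((((chiT D e r)⁻¹ : Fˣ) : F) * t) * g⁻¹)) (by
      intro a b
      show g * Y r (_ * (a + b)) * g⁻¹ = (g * Y r _ * g⁻¹) * (g * Y r _ * g⁻¹)
      rw [mul_add, ha r hr]
      group) (by
      intro t
      show p (g * Y r _ * g⁻¹) = _
      rw [map_mul, map_mul, map_inv, hg, hm r hr, tg_conj, ← mul_assoc, ← Units.val_mul]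
      simp) (((chiT D e r : Fˣ) : F) * t)
    simp only [← mul_assoc, ← Units.val_mul, inv_mul_cancel, Units.val_one, one_mul] at h1
    exact h1
  · intro n σ u hmem hact s t
    have hma := monoAct_of_rootAct hF (p n).2 hact
    have hma' : (rd hF F).MonoAct (p n) σ u := hma
    have h1 := key (σ s) (fun t => n * Y s (((u s)⁻¹ : Fˣ) * t) * n⁻¹) (by
      intro a b
      show n * Y s (_ * (a + b)) * n⁻¹ = (n * Y s _ * n⁻¹) * (n * Y s _ * n⁻¹)
      rw [mul_add, ha s s.2]
      group) (by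
      intro t
      show p (n * Y s _ * n⁻¹) = _
      rw [map_mul, map_mul, map_inv, hm s s.2, hma'.conj, ← mul_assoc, ← Units.val_mul]
      simp) (((u s : Fˣ) : F) * t)
    simp only [← mul_assoc, ← Units.val_mul, inv_mul_cancel, Units.val_one, one_mul] at h1
    exact h1

variable {Y : ℕ → F → Γ}

include hc in
theorem R2_fixed_tf (h : TL hF p Y) (hTF : TF p ℓ) {k : ℕ} (hkN : R.N ≤ k) (hI : ∀ g ∈ Uq D Y (k + 1), qq p g = 1 → g = 1) :
    ∀ m s, k < s → s < D.nroots → D.nroots - s ≤ m → R2 D Y k s := by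
  intro m
  induction m with
  | zero =>
    intro s _ hsn hm
    omega
  | succ m ih =>
    intro s hks hsn hm t u
    have hk : k < D.nroots := by omega
    have hIH : ∀ c ∈ D.commTerms k s, ∀ (v t' : F), (Y k t')⁻¹ * Y c.1 v * Y k t' ∈ Uq D Y (k + 1) := by
      intro c hc' v t'
      obtain ⟨h1, h2⟩ := h.terms_gt hkN hks hsn hc'
      have e0 := ih c.1 (by omega) h2 (by omega) t' v
      have e : (Y k t')⁻¹ * Y c.1 v * Y k t' = Y c.1 v * WW D Y k c.1 t' v := by
        rw [mul_assoc, e0]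
        group
      rw [e]
      exact Subgroup.mul_mem _ (h.Ys_mem_K hkN (by omega) h2 v) (h.WW_mem_K hkN (by omega) h2 _ _)
    have hone : phi D Y k s t u = 1 → Y s u * Y k t = Y k t * Y s u * WW D Y k s t u := by
      intro e
      have := rel_phi (D := D) (Y := Y) k s t u
      rwa [e, mul_one] at this
    apply hone
    refine tf_trivial hTF.char (fun t => phi D Y k s t u) ?_ ?_ t
    · intro a b
      show phi D Y k s (a + b) u = phi D Y k s a u * phi D Y k s b u
      rw [add_comm]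
      exact h.phi_add_t hc hkN hks hsn hI hIH b a u
    · intro a e
      exact hTF.tf _ (q_eq_one (h.phi_q hkN hks hsn a u)) e

include hc in
/-- Injectivity on the positive part. -/
theorem inj_all_tf (h : TL hF p Y) (hTF : TF p ℓ) :
    ∀ m k, k + m = D.nroots → R.N ≤ k → ∀ g ∈ Uq D Y k, qq p g = 1 → g = 1 := by
  intro m
  induction m with
  | zero =>
    intro k hk _ g hg _
    have h1 : Uq D Y k = ⊥ := by
      unfold Uq clo
      rw [Subgroup.closure_eq_bot_iff]
      rintro x ⟨s, t, hs', _⟩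
      omega
    rw [h1, Subgroup.mem_bot] at hg
    exact hg
  | succ m ih =>
    intro k hk hkN g hg hq
    have hkn : k < D.nroots := by omega
    have hI := ih (k + 1) (by omega) (by omega)
    have hR : ∀ s, k < s → s < D.nroots → R2 D Y k s := fun s h1 h2 =>
      R2_fixed_tf hF hc h hTF hkN hI _ s h1 h2 le_rfl
    have hconj : ∀ (t : F) (x : Γ), (∃ (s : ℕ) (u : F), (k + 1 ≤ s ∧ s < D.nroots) ∧ x = Y s u) →
        (Y k t)⁻¹ * x * Y k t ∈ Uq D Y (k + 1) := by
      rintro t x ⟨s, u, hs', rfl⟩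
      have e := hR s (by omega) hs'.2 t u
      have e' : (Y k t)⁻¹ * Y s u * Y k t = Y s u * WW D Y k s t u := by
        rw [mul_assoc, e]
        group
      rw [e']
      exact Subgroup.mul_mem _ (h.Ys_mem_K hkN (by omega) hs'.2 u) (h.WW_mem_K hkN (by omega) hs'.2 _ _)
    have hnorm : ∀ t : F, Y k t ∈ Subgroup.normalizer (Uq D Y (k + 1) : Set Γ) := by
      intro t
      apply GroupLem.mem_normalizer_closure
      · intro x hx
        have := hconj (-t) x hx
        rwa [h.y_neg hkn, inv_inv] at this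
      · intro x hx
        exact hconj t x hx
    have hsingle : ∀ {x : Γ}, x ∈ clo Y (fun r => r = k) → ∃ t, x = Y k t := by
      intro x hx
      unfold clo at hx
      induction hx using Subgroup.closure_induction with
      | mem x hx =>
        obtain ⟨s, t, rfl, rfl⟩ := hx
        exact ⟨t, rfl⟩
      | one => exact ⟨0, (h.y_zero hkn).symm⟩
      | mul x z _ _ hx hz =>
        obtain ⟨a, rfl⟩ := hx
        obtain ⟨b, rfl⟩ := hz
        exact ⟨a + b, (h.add k hkn a b).symm⟩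
      | inv x _ hx =>
        obtain ⟨a, rfl⟩ := hx
        exact ⟨-a, (h.y_neg hkn a).symm⟩
    have hle : clo Y (fun r => r = k) ≤ Subgroup.normalizer (Uq D Y (k + 1) : Set Γ) := by
      intro x hx
      obtain ⟨t, rfl⟩ := hsingle hx
      exact hnorm t
    have hsup : Uq D Y k ≤ Uq D Y (k + 1) ⊔ clo Y (fun r => r = k) := by
      refine (Subgroup.closure_le _).2 ?_
      rintro x ⟨s, t, hs', rfl⟩
      by_cases hsk : s = k
      · subst hsk
        exact Subgroup.mem_sup_right (y_mem_clo (Q := fun r => r = s) (s := s) rfl t)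
      · exact Subgroup.mem_sup_left (y_mem_clo (Q := fun r => k + 1 ≤ r ∧ r < D.nroots) (s := s) ⟨by omega, hs'.2⟩ t)
    obtain ⟨v, hv, x, hx, rfl⟩ := (GroupLem.mem_sup_iff_of_le_normalizer hle).1 (hsup hg)
    obtain ⟨t, rfl⟩ := hsingle hx
    rw [map_mul, h.q_Y hkn] at hq
    have h1 : hF.c.xG k t ∈ Full.Uk D F (k + 1) := by
      have e : hF.c.xG k t = (qq p v)⁻¹ := eq_inv_of_mul_eq_one_right hq
      rw [e]
      exact Subgroup.inv_mem _ (h.q_Uq hv)
    have h2 := hF.xG_not_mem hkN hkn h1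
    subst h2
    rw [h.y_zero hkn, mul_one]
    rw [hF.c.xG_zero, mul_one] at hq
    exact hI v hv hq

include hs hc in
/-- The relators hold for additive lifts. -/
theorem rels_of_tf (hY : TL hF p Y) (hTF : TF p ℓ)
    (hTab : ∀ r < D.nroots, ∀ s < D.nroots, s ≠ r → s ≠ D.neg r → ∃ w : List ℕ, (∀ i ∈ w, i < D.rank) ∧
      R.N ≤ wAct X w r ∧ R.N ≤ wAct X w s ∧ ∀ c ∈ D.commTerms r s, R.N ≤ wAct X w c.1) :
    ∀ g ∈ D.steinbergRelsAB F, FreeGroup.lift (fun q : Fin D.nroots × F => Y q.1 q.2) g = 1 := by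
  classical
  have hN : R.N ≤ D.nroots := by
    have := hF.r.two
    omega
  have hI := inj_all_tf hF hc hY hTF (D.nroots - R.N) R.N (by omega) le_rfl
  let f : Fin D.nroots × F → Γ := fun q => Y q.1 q.2
  have hX : ∀ (r : ℕ) (hr : r < D.nroots) (t : F), FreeGroup.lift f (D.stX r t) = Y r t := by
    intro r hr t
    simp [ChevalleyDatum.stX, hr, f]
  show ∀ g ∈ D.steinbergRelsAB F, FreeGroup.lift f g = 1
  rintro g (⟨r, t₁, t₂, hr, rfl⟩ | ⟨r, s, t, u, hr, hs', h1, h2, rfl⟩)
  · simp only [map_mul, map_inv, hX r hr]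
    rw [hY.add r hr]
    group
  · have hw : FreeGroup.lift f (D.stWord (D.commWord F r s t u)) = TL.WW D Y r s t u := by
      unfold ChevalleyDatum.stWord TL.WW
      rw [map_list_prod, List.map_map]
      congr 1
      apply List.map_congr_left
      intro c hc'
      simp only [ChevalleyDatum.commWord, List.mem_map] at hc'
      obtain ⟨c', hc1, rfl⟩ := hc'
      exact hX _ (hF.commTerms_spec hr hs' h1 h2 hc1).1 _
    simp only [map_mul, map_inv, hX r hr, hX s hs']
    rw [hw]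
    have e := hY.comm_all hc hs hI hTab r hr s hs' h1 h2 t u
    have e3 : (Y s u)⁻¹ * (Y r t)⁻¹ * Y s u * Y r t = (Y r t * Y s u)⁻¹ * (Y s u * Y r t) := by group
    rw [e3, e]
    group

/-! ### Additive lifts -/

/-- An additive lift at a root. -/
def AddLift (p : Γ →* ↥(D.group F)) (hF : Full T X R D) (κ : Fin D.nroots) : Prop :=
  ∃ y : F → Γ, (∀ t, p (y t) = (rd hF F).X κ t) ∧ ∀ a b, y (a + b) = y a * y b

include hs hc in
lemma addLift_of_chi (hTF : TF p ℓ) {κ : Fin D.nroots} {c : Fin D.rank → Fˣ} (h : chiT D c κ ≠ 1) : AddLift p hF κ := by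
  refine ⟨yc hF p hs c κ, yc_map hF p hs h, ?_⟩
  exact yc_add hF p hs hc (fun κ a b => BB_tf hF hs hc hTF ((rd hF F).X_comm_self κ) a b) h

include hs hc in
lemma addLift_of_dec (hTF : TF p ℓ) {μ ν κ : Fin D.nroots} {c : F} (hd : (rd hF F).Dec μ ν κ c)
    (hC : (rd hF F).Csem κ ν) : AddLift p hF κ := by
  have hc0 := hd.2.1
  set u := Function.surjInv hs ((rd hF F).X μ 1) with hu
  have pu : p u = (rd hF F).X μ 1 := map_surjInv p hs _
  let y : F → Γ := fun t => ⁅u, Function.surjInv hs ((rd hF F).X ν (c⁻¹ * t))⁆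
  have hm : ∀ t, p (y t) = (rd hF F).X κ t := by
    intro t
    show p ⁅u, _⁆ = _
    rw [map_commutatorElement, pu, map_surjInv, hd.2.2]
    congr 1
    field_simp
  refine ⟨y, hm, ?_⟩
  intro a b
  set v := Function.surjInv hs ((rd hF F).X ν (c⁻¹ * a)) with hv
  set w := Function.surjInv hs ((rd hF F).X ν (c⁻¹ * b)) with hw
  have pv : p v = (rd hF F).X ν (c⁻¹ * a) := map_surjInv p hs _
  have pw : p w = (rd hF F).X ν (c⁻¹ * b) := map_surjInv p hs _
  have e1 : y (a + b) = ⁅u, v * w⁆ := by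
    apply comm_eq_of_lifts p hc rfl
    rw [map_surjInv, map_mul, pv, pw, ← (rd hF F).X_add, mul_add]
  have e2 : y a = ⁅u, v⁆ := rfl
  have e3 : y b = ⁅u, w⁆ := rfl
  rw [e1, e2, e3]
  have hcomm : Commute ⁅u, w⁆ v := by
    exact commute_of_BB p hs hc (BB_tf hF hs hc hTF hC.2 b (c⁻¹ * a)) (hm b) pv
  have e4 : ⁅u, v * w⁆ = ⁅u, v⁆ * (v * ⁅u, w⁆ * v⁻¹) := by
    simp only [commutatorElement_def]
    group
  rw [e4, hcomm.symm.eq]
  group

include hs hc in
theorem lift_of_addLift (hTF : TF p ℓ) (hadd : ∀ κ, AddLift p hF κ)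
    (hTab : ∀ r < D.nroots, ∀ s < D.nroots, s ≠ r → s ≠ D.neg r → ∃ w : List ℕ, (∀ i ∈ w, i < D.rank) ∧
      R.N ≤ wAct X w r ∧ R.N ≤ wAct X w s ∧ ∀ c ∈ D.commTerms r s, R.N ≤ wAct X w c.1) :
    ∃ φ : D.SteinbergCover F →* Γ, p.comp φ = thetaG hF := by
  classical
  choose y hy1 hy2 using hadd
  let Y : ℕ → F → Γ := fun r t => if h : r < D.nroots then y ⟨r, h⟩ t else 1
  have hY : ∀ (r : ℕ) (hr : r < D.nroots) (t : F), Y r t = y ⟨r, hr⟩ t := by
    intro r hr t
    simp [Y, hr]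
  have hm : ∀ r (hr : r < D.nroots) (t : F), p (Y r t) = (rd hF F).X ⟨r, hr⟩ t := by
    intro r hr t
    rw [hY r hr]
    exact hy1 _ t
  have ha : ∀ r < D.nroots, ∀ a b, Y r (a + b) = Y r a * Y r b := by
    intro r hr a b
    rw [hY r hr, hY r hr, hY r hr]
    exact hy2 _ a b
  have hT := TL_of_add hF hc hTF hm ha
  exact exists_hom_of_rels hF p (f := fun q => Y q.1 q.2) (fun q => hm _ q.1.2 q.2) (rels_of_tf hF hs hc hT hTF hTab)

include hs hc in
lemma addLift_of_self (hTF : TF p ℓ) {M : List (ℕ × ℕ)} (h : selfOk D M = true) (κ : Fin D.nroots) : AddLift p hF κ := by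
  simp only [selfOk, List.all_eq_true, List.mem_range] at h
  have h1 := h κ κ.2
  simp only [bbChk, Bool.and_eq_true, Nat.blt_eq] at h1
  obtain ⟨⟨⟨⟨h2, h3⟩, h4⟩, _⟩, h5⟩ := h1
  obtain ⟨c, hd⟩ := dec_of_chk (F := F) (μ := ⟨_, h2⟩) (ν := ⟨_, h3⟩) (κ := κ) hF h4 (by simp)
  exact addLift_of_dec hF hs hc hTF hd (csem_of_chk (s := ⟨_, h3⟩) hF h5)

include hs hc in
lemma addLift_of_dual (hTF : TF p ℓ) (hx : ∃ x : F, x ≠ 0 ∧ x ≠ 1) {V : List (List ℤ)} (h : dualOk D V = true)
    (κ : Fin D.nroots) : AddLift p hF κ := by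
  obtain ⟨x, hx0, hx1⟩ := hx
  refine addLift_of_chi hF hs hc hTF (c := vecT D (V.getD κ []) (Units.mk0 x hx0)) ?_
  rw [chi_of_dual (dual_of_ok h κ)]
  intro e
  apply hx1
  simpa using congrArg Units.val e

section B2

variable {X' : Extra} {T' : Tabs} {R' : RootTab} (hG : Full T' X' R' chevB2) {q : Γ →* ↥(chevB2.group F)}
  (hqs : Function.Surjective q) (hqc : q.ker ≤ Subgroup.center Γ)

include hqs hqc in
lemma addLift_B2 (hTF : TF q ℓ) (hx : ∃ x : F, x ≠ 0 ∧ x ≠ 1) (κ : Fin chevB2.nroots) : AddLift q hG κ := by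
  obtain ⟨x, hx0, hx1⟩ := hx
  set a : Fˣ := Units.mk0 x hx0 with ha
  have ha1 : a ≠ 1 := by
    intro e
    apply hx1
    simpa [ha] using congrArg Units.val e
  have hshort : ∀ (κ : Fin chevB2.nroots) (v : List ℤ), dotC chevB2 v κ = 1 → AddLift q hG κ := by
    intro κ v e
    refine addLift_of_chi hG hqs hqc hTF (c := vecT chevB2 v a) ?_
    rw [chi_of_dual e]
    exact ha1
  have hlong : ∀ (κ μ ν : Fin chevB2.nroots) (v : List ℤ), dotC chevB2 v κ = 2 → decChk chevB2 μ ν κ 2 = true →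
      csChk chevB2 κ ν = true → AddLift q hG κ := by
    intro κ μ ν v e1 e2 e3
    by_cases h2 : (2 : F) = 0
    · refine addLift_of_chi hG hqs hqc hTF (c := vecT chevB2 v a) ?_
      rw [chiT_vec, e1]
      intro e
      have e4 : x ^ 2 = 1 := by
        have := congrArg Units.val e
        simpa [ha] using this
      apply hx1
      have e5 : (x - 1) * (x - 1) = 0 := by
        linear_combination e4 - x * h2 + h2
      rcases mul_eq_zero.mp e5 with e6 | e6 <;> exact sub_eq_zero.mp e6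
    · obtain ⟨c, hd⟩ := dec_of_chk (F := F) hG e2 (a := 2) (by exact_mod_cast h2)
      exact addLift_of_dec hG hqs hqc hTF hd (csem_of_chk hG e3)
  rcases ChevStB2.fin8 κ with rfl | rfl | rfl | rfl | rfl | rfl | rfl | rfl
  · exact hlong _ (ChevStB2.rt 1) (ChevStB2.rt 2) [-1, 0] (by decide +kernel) (by decide +kernel) (by decide +kernel)
  · exact hshort _ [0, -1] (by decide +kernel)
  · exact hshort _ [0, 1] (by decide +kernel)
  · exact hlong _ (ChevStB2.rt 1) (ChevStB2.rt 5) [0, -1] (by decide +kernel) (by decide +kernel) (by decide +kernel)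
  · exact hlong _ (ChevStB2.rt 2) (ChevStB2.rt 6) [0, 1] (by decide +kernel) (by decide +kernel) (by decide +kernel)
  · exact hshort _ [0, -1] (by decide +kernel)
  · exact hshort _ [0, 1] (by decide +kernel)
  · exact hlong _ (ChevStB2.rt 5) (ChevStB2.rt 6) [1, 0] (by decide +kernel) (by decide +kernel) (by decide +kernel)

end B2

/-- All the types: a central extension of a Chevalley group whose kernel has no torsion in the characteristic of the
field is covered by the group presented by (R1), (R2). -/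
theorem lift_tf_all (D : ChevalleyDatum)
    (hD : D ∈ [chevG2, chevB2, chevD4, chevF4, chevE6, chevE7, chevE8]) (hK : D ∈ [chevB2, chevG2] → ∃ x : F, x ≠ 0 ∧ x ≠ 1)
    (p : Γ →* ↥(D.group F)) (hs : Function.Surjective p) (hc : p.ker ≤ Subgroup.center Γ) (hTF : TF p ℓ) :
    ∃ φ : D.SteinbergCover F →* Γ, ∀ (r : ℕ) (t : F), r < D.nroots →
      ((p (φ (D.scGen F r t)) : GL D.Idx F) : Matrix D.Idx D.Idx F) = D.x F r t := by
  have key : ∀ {T : Tabs} {X : Extra} {R : RootTab} (hF : Full T X R D),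
      (∃ φ : D.SteinbergCover F →* Γ, p.comp φ = thetaG hF) → ∃ φ : D.SteinbergCover F →* Γ, ∀ (r : ℕ) (t : F), r < D.nroots →
      ((p (φ (D.scGen F r t)) : GL D.Idx F) : Matrix D.Idx D.Idx F) = D.x F r t := by
    rintro T X R hF ⟨φ, hφ⟩
    refine ⟨φ, fun r t hr => ?_⟩
    have e : p (φ (D.scGen F r t)) = thetaG hF (D.scGen F r t) := DFunLike.congr_fun hφ _
    rw [e, coe_thetaG, theta_y hF hr, hF.c.coe_xG]
  simp only [List.mem_cons, List.not_mem_nil, or_false] at hD
  rcases hD with rfl | rfl | rfl | rfl | rfl | rfl | rfl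
  · have hF : Full _ _ _ chevG2 := ⟨RelG2.checks, RootG2.checks⟩
    exact key hF (lift_of_addLift hF hs hc hTF (addLift_of_dual hF hs hc hTF (hK (by simp)) ChevTorG2.dual_ok)
      (hTab_of_ok ChevTorG2.tab_ok))
  · have hF : Full _ _ _ chevB2 := ⟨RelB2.checks, RootB2.checks⟩
    exact key hF (lift_of_addLift hF hs hc hTF (addLift_B2 hF hs hc hTF (hK (by simp))) (hTab_of_ok ChevTorB2.tab_ok))
  · have hF : Full _ _ _ chevD4 := ⟨RelD4.checks, RootD4.checks⟩
    exact key hF (lift_of_addLift hF hs hc hTF (addLift_of_self hF hs hc hTF ChevTorD4.self_ok)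
      (hTab_of_ok ChevTorD4.tab_ok))
  · have hF : Full _ _ _ chevF4 := ⟨RelF4.checks, RootF4.checks⟩
    exact key hF (lift_of_addLift hF hs hc hTF (addLift_of_self hF hs hc hTF ChevTorF4.self_ok)
      (hTab_of_ok ChevTorF4.tab_ok))
  · have hF : Full _ _ _ chevE6 := ⟨RelE6.checks, RootE6.checks⟩
    exact key hF (lift_SL hF ChevSLE6.data p hs hc)
  · have hF : Full _ _ _ chevE7 := ⟨RelE7.checks, RootE7.checks⟩
    exact key hF (lift_SL hF ChevSLE7.data p hs hc)
  · have hF : Full _ _ _ chevE8 := ⟨RelE8.checks, RootE8.checks⟩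
    exact key hF (lift_SL hF ChevSLE8.data p hs hc)

end Cfsg.Agent.Lib.ChevCov
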