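import Cfsg.Agent.Lib.ChevCov.Rels
import Cfsg.Agent.Lib.ChevSec2

/-!
# Over a finite field the relators (R3) follow from (R1), (R2)

The group presented by (R1), (R2) is finite, since its kernel over the Chevalley group is central; the sections over
rank one subgroups then give (R3).
-/

set_option autoImplicit false
set_option linter.unusedSectionVars false
set_option linter.unusedVariables false

namespace Cfsg.Agent.Lib.ChevCov

open Cfsg Cfsg.Lie Matrix Cfsg.Agent.Lib.Chev Cfsg.Agent.Lib.ChevLift Cfsg.Agent.Lib.ChevLift.RD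
  Cfsg.Agent.Lib.ChevLiftC Cfsg.Agent.Lib.ChevBL Cfsg.Agent.Lib.StA
open Cfsg.Agent.Lib.SL2Core Cfsg.Agent.Lib.SL2Bor Cfsg.Agent.Lib.StK
open Cfsg.Agent.Lib.ChevPres (NegOK negTerm negWord commWord_neg neg_ne_of WOK PresOK)
open scoped commutatorElement

variable {T : Tabs} {X : Extra} {R : RootTab} {D : ChevalleyDatum} (hF : Full T X R D) (hP : PresOK X D)
variable {K : Type*} [Field K]

omit hP in
theorem thetaG_scGen {r : ℕ} (hr : r < D.nroots) (t : K) : thetaG hF (D.scGen K r t) = (rd hF K).X ⟨r, hr⟩ t := by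
  apply Subtype.ext
  rw [coe_thetaG, theta_y hF hr]
  rfl

include hP in
/-- All the `n̄_r(d)` act on the root elements. -/
theorem exists_act_nb {r : ℕ} (hr : r < D.nroots) : ∀ d : K, d ≠ 0 → ∃ σ u, RootActB hF (nb D K r d) σ u := by
  refine hF.root_induction (P := fun r => ∀ d : K, d ≠ 0 → ∃ σ u, RootActB hF (nb D K r d) σ u) ?_ ?_ r hr
  · intro j hj d hd
    have h := (rootActB_hb hF hP hj (Units.mk0 d hd)).mul (rootActB_nS hF hP (K := K) hj)
    rw [nb_eq_hb_mul]
    exact ⟨_, _, h⟩
  · intro j hj s hs ih d hd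
    have h0 := rootActB_nS hF hP (K := K) hj
    set e : Kˣ := hF.etaU (F := K) hj ⟨s, hs⟩ with he
    have hd' : ((e⁻¹ : Kˣ) : K) * d ≠ 0 := mul_ne_zero (Units.ne_zero _) hd
    obtain ⟨σ, u, h1⟩ := ih _ hd'
    have h2 := h0.conj_nb ⟨s, hs⟩ (((e⁻¹ : Kˣ) : K) * d)
    have h3 : (((hF.wPerm hj ⟨s, hs⟩ : Fin D.nroots)) : ℕ) = X.wf j s := rfl
    rw [h3] at h2
    have h4 : ((hF.etaU (F := K) hj ⟨s, hs⟩ : Kˣ) : K) * (((e⁻¹ : Kˣ) : K) * d) = d := by
      rw [← he, ← mul_assoc, ← Units.val_mul, mul_inv_cancel, Units.val_one, one_mul]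
    rw [h4] at h2
    rw [← h2]
    exact ⟨_, _, (h0.mul h1).mul h0.inv⟩

include hP in
theorem exists_act_hb {r : ℕ} (hr : r < D.nroots) (d : K) (hd : d ≠ 0) : ∃ σ u, RootActB hF (hb D K r d) σ u := by
  obtain ⟨σ, u, h1⟩ := exists_act_nb hF hP hr d hd
  obtain ⟨σ', u', h2⟩ := exists_act_nb hF hP hr (-1 : K) (neg_ne_zero.mpr one_ne_zero)
  exact ⟨_, _, h1.mul h2⟩

omit hP in
/-- The action in the presented group is read off from the Chevalley group. -/
theorem conj_of_act {g : D.SteinbergCover K} {σ u} (hg : RootActB hF g σ u) {s s' : Fin D.nroots} {t t' : K}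
    (e : thetaG hF g * (rd hF K).X s t * (thetaG hF g)⁻¹ = (rd hF K).X s' t') :
    g * D.scGen K s t * g⁻¹ = D.scGen K s' t' := by
  have h1 := hg.conj s t
  have h2 := congrArg (thetaG hF) h1
  rw [map_mul, map_mul, map_inv, thetaG_scGen hF s.2, thetaG_scGen hF (σ s).2, e] at h2
  rw [h1]
  by_cases ht : t' = 0
  · subst ht
    rw [RD.X_zero] at h2
    have h3 : ((u s : Kˣ) : K) * t = 0 := by
      have h4 : (rd hF K).X (σ s) (((u s : Kˣ) : K) * t) = (rd hF K).X (σ s) 0 := by
        rw [RD.X_zero]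
        exact h2.symm
      exact (rd hF K).X_inj _ _ _ h4
    rw [h3, yb_zero, yb_zero]
  · have h3 := (rd hF K).X_root_inj s' (σ s) t' _ ht h2
    subst h3
    have h4 := (rd hF K).X_inj _ _ _ h2
    rw [h4]

omit hP in
theorem conj_eq_of_map (hc : (thetaG (K := K) hF).ker ≤ Subgroup.center (D.SteinbergCover K))
    {g g' : D.SteinbergCover K} (e : thetaG hF g = thetaG hF g') (y : D.SteinbergCover K) :
    g * y * g⁻¹ = g' * y * g'⁻¹ := by
  have h1 : g'⁻¹ * g ∈ Subgroup.center (D.SteinbergCover K) := by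
    apply hc
    rw [MonoidHom.mem_ker, map_mul, map_inv, e, inv_mul_cancel]
  have h2 : g = g' * (g'⁻¹ * g) := by group
  rw [h2, _root_.mul_inv_rev]
  generalize g'⁻¹ * g = z at h1
  have h3 := Subgroup.mem_center_iff.mp h1 y
  calc g' * z * y * (z⁻¹ * g'⁻¹) = g' * (z * y) * z⁻¹ * g'⁻¹ := by group
    _ = g' * (y * z) * z⁻¹ * g'⁻¹ := by rw [h3]
    _ = _ := by group

section Fin

variable [Fintype K]

include hF hP in
/-- The group presented by (R1), (R2) over a finite field is finite. -/
theorem finite_cover : Finite (D.SteinbergCover K) := by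
  classical
  have hc : (thetaG (K := K) hF).ker ≤ Subgroup.center (D.SteinbergCover K) := by
    rw [ker_thetaG]
    exact ker_le_center hF hP
  have hG : Finite ↥(D.group K) := inferInstance
  -- the commutators
  have h1 : Finite (commutatorSet (D.SteinbergCover K)) := by
    let f : ↥(D.group K) × ↥(D.group K) → D.SteinbergCover K := fun q =>
      ⁅Function.surjInv (thetaG_surjective (K := K) hF) q.1, Function.surjInv (thetaG_surjective (K := K) hF) q.2⁆
    have h2 : commutatorSet (D.SteinbergCover K) ⊆ Set.range f := by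
      rintro _ ⟨a, b, rfl⟩
      refine ⟨(thetaG hF a, thetaG hF b), ?_⟩
      apply comm_eq_of_lifts (thetaG hF) hc
      · exact Function.surjInv_eq _ _
      · exact Function.surjInv_eq _ _
    exact ((Set.finite_range f).subset h2).to_subtype
  have h3 : Finite (commutator (D.SteinbergCover K)) := inferInstance
  -- the abelianisation
  have hfg : Group.FG (D.SteinbergCover K) := by
    rw [Group.fg_iff]
    exact ⟨Set.range PresentedGroup.of, PresentedGroup.closure_range_of _, Set.finite_range _⟩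
  have hsurj : Function.Surjective (Abelianization.of (G := D.SteinbergCover K)) := QuotientGroup.mk_surjective
  have hfg' : Group.FG (Abelianization (D.SteinbergCover K)) := Group.fg_of_surjective hsurj
  have htor : ∀ x : D.SteinbergCover K, IsOfFinOrder (Abelianization.of x) := by
    intro x
    have hx : x ∈ (⊤ : Subgroup (D.SteinbergCover K)) := Subgroup.mem_top x
    rw [← PresentedGroup.closure_range_of] at hx
    induction hx using Subgroup.closure_induction with
    | mem x hx =>
      obtain ⟨⟨r, t⟩, rfl⟩ := hx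
      have h0 : PresentedGroup.of (rels := D.steinbergRelsAB K) ((r, t) : Fin D.nroots × K) = D.scGen K r t := by
        unfold ChevalleyDatum.scGen ChevalleyDatum.stX
        rw [dif_pos r.2]
        rfl
      rw [h0, isOfFinOrder_iff_pow_eq_one]
      refine ⟨Fintype.card K, Fintype.card_pos, ?_⟩
      have h7 : ∀ n : ℕ, D.scGen K r t ^ n = D.scGen K r (n • t) := by
        intro n
        induction n with
        | zero => simp
        | succ n ih => rw [pow_succ, ih, yb_add, succ_nsmul]
      have h8 : Fintype.card K • t = 0 := by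
        rw [← Nat.card_eq_fintype_card]
        exact card_nsmul_eq_zero'
      rw [← map_pow, h7, h8, yb_zero, map_one]
    | one => rw [map_one]; exact IsOfFinOrder.one
    | mul x y _ _ hx hy =>
      rw [map_mul]
      exact hx.mul hy
    | inv x _ hx =>
      rw [map_inv]
      exact hx.inv
  have h4 : Finite (Abelianization (D.SteinbergCover K)) := by
    apply CommGroup.finite_of_fg_isMulTorsion
    intro x
    obtain ⟨y, rfl⟩ := hsurj x
    exact htor y
  have h4' : Finite (D.SteinbergCover K ⧸ commutator (D.SteinbergCover K)) := h4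
  exact Finite.of_subgroup_quotient (commutator (D.SteinbergCover K))

section Psi

variable [Finite (D.SteinbergCover K)]

include hF hP in
/-- The section over a rank one subgroup. -/
theorem exists_psi_cov {r : ℕ} (hr : r < D.nroots) :
    ∃ ψ : SL2 K →* D.SteinbergCover K, (∀ t, ψ (uu t) = D.scGen K r t) ∧ ∀ t, ψ (ll t) = D.scGen K (D.neg r) t := by
  have hc : (thetaG (K := K) hF).ker ≤ Subgroup.center (D.SteinbergCover K) := by
    rw [ker_thetaG]
    exact ker_le_center hF hP
  obtain ⟨φ₀, hu, hl'⟩ := exists_phi0 (F := K) hF ⟨r, hr⟩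
  have hnr := hF.neg_lt hr
  have hl : ∀ t, φ₀ (ll t) = (rd hF K).X ⟨D.neg r, hnr⟩ t := hl'
  have hnb : ∀ d : K, φ₀ (wd d) = thetaG hF (nb D K r d) := by
    intro d
    unfold nb wd
    rw [map_mul, map_mul, map_mul, map_mul, hu, hl, thetaG_scGen hF hr, thetaG_scGen hF hnr]
  refine ChevSec2.exists_sec2 (thetaG hF) hc φ₀ hu hl (fun a b => (yb_add D r a b).symm) (fun a b => (yb_add D _ a b).symm)
    (fun a => thetaG_scGen hF hr a) (fun a => thetaG_scGen hF hnr a) ?_ ?_ ?_
  · intro a b s t ha hb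
    have e := comm_eq_of_lifts (thetaG hF) hc (u := a) (u' := D.scGen K r s) (v := b) (v' := D.scGen K r t)
      (by rw [ha, thetaG_scGen hF hr]) (by rw [hb, thetaG_scGen hF hr])
    have e2 : ⁅D.scGen K r s, D.scGen K r t⁆ = 1 := by
      rw [commutatorElement_eq_one_iff_mul_comm, yb_add, yb_add, add_comm]
    rw [e2, commutatorElement_eq_one_iff_mul_comm] at e
    exact e
  · intro g hg c
    obtain ⟨σ, u, h1⟩ := exists_act_nb hF hP hr (1 : K) one_ne_zero
    have e0 : thetaG hF g = thetaG hF (nb D K r 1) := by rw [hg, hnb]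
    rw [conj_eq_of_map hF hc e0]
    apply conj_of_act hF h1 (s := ⟨D.neg r, hnr⟩) (s' := ⟨r, hr⟩)
    rw [← hnb, ← hl, ← map_mul, wd_mul_ll, map_mul, hu]
    group
  · intro d hd g hg a
    obtain ⟨σ, u, h1⟩ := exists_act_hb hF hP hr d hd
    have e0 : thetaG hF g = thetaG hF (hb D K r d) := by
      rw [hg, hnb, hnb, ← map_mul]
      rfl
    rw [conj_eq_of_map hF hc e0]
    apply conj_of_act hF h1 (s := ⟨r, hr⟩) (s' := ⟨r, hr⟩)
    have e1 : thetaG hF (hb D K r d) = φ₀ (wd d * wd (-1 : K)) := by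
      rw [map_mul, hnb, hnb, ← map_mul]
      rfl
    have e2 := congrArg φ₀ (D_mul_uu hd a)
    rw [map_mul, map_mul, map_mul, map_mul, hu, hu] at e2
    rw [e1, map_mul, e2]
    group

include hF hP in
/-- (R3) holds. -/
theorem hb_mul_cov {r : ℕ} (hr : r < D.nroots) {a b : K} (ha : a ≠ 0) (hb' : b ≠ 0) :
    hb D K r a * hb D K r b = hb D K r (a * b) := by
  obtain ⟨ψ, h1, h2⟩ := exists_psi_cov hF hP hr (K := K)
  have e : ∀ d : K, nb D K r d = ψ (wd d) := by
    intro d
    unfold nb wd
    rw [map_mul, map_mul, h1, h2]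
  unfold hb
  rw [e, e, e, e, ← map_mul, ← map_mul, ← map_mul, ← map_mul, ChevLiftC.wd_mul_wd ha hb']

end Psi

end Fin

end Cfsg.Agent.Lib.ChevCov
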