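import Cfsg.Agent.Lib.ChevCov.Center
import Cfsg.Agent.Lib.ChevCov.Form

/-!
# Homomorphisms from the group presented by (R1), (R2) to central extensions
-/

set_option autoImplicit false
set_option linter.unusedSectionVars false
set_option linter.unusedVariables false

namespace Cfsg.Agent.Lib.ChevCov

open Cfsg Cfsg.Lie Matrix Cfsg.Agent.Lib.Chev Cfsg.Agent.Lib.ChevLift Cfsg.Agent.Lib.ChevLift.RD
  Cfsg.Agent.Lib.ChevLiftC Cfsg.Agent.Lib.ChevBL Cfsg.Agent.Lib.ChevStem Cfsg.Agent.Lib.ChevTorTab
  Cfsg.Agent.Lib.ChevTor Cfsg.Agent.Lib.StA Cfsg.Agent.Lib.ChevStRed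
open scoped commutatorElement

variable {T : Tabs} {X : Extra} {R : RootTab} {D : ChevalleyDatum} (hF : Full T X R D)
variable {F : Type*} [Field F] {Γ : Type*} [Group Γ]
  (p : Γ →* ↥(D.group F)) (hs : Function.Surjective p) (hc : p.ker ≤ Subgroup.center Γ)

/-! ### The simply laced route -/

include hs hc in
/-- The relations of the presented group hold for the lifts. -/
theorem st_rels_AB (hS : Shape D) (hT : ∀ r, T1at (rd hF F) r) {y : Fin D.nroots → F → Γ}
    (hy : ∀ κ, IsY (rd hF F) p hs κ (y κ)) :
    ∀ g ∈ D.steinbergRelsAB F, FreeGroup.lift (fun q : Fin D.nroots × F => y q.1 q.2) g = 1 := by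
  classical
  let f : Fin D.nroots × F → Γ := fun q => y q.1 q.2
  have hX : ∀ (r : ℕ) (hr : r < D.nroots) (t : F), FreeGroup.lift f (D.stX r t) = y ⟨r, hr⟩ t := by
    intro r hr t
    simp [ChevalleyDatum.stX, hr, f]
  have hneg : ∀ (r : Fin D.nroots) (a : F), y r (-a) = (y r a)⁻¹ := by
    intro r a
    have h1 := (hy r).add (-a) a
    have h2 : y r 0 = 1 := by
      have := (hy r).add 0 0
      rw [add_zero] at this
      exact mul_eq_left.mp this.symm
    rw [neg_add_cancel, h2] at h1
    exact (inv_eq_of_mul_eq_one_left h1.symm).symm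
  show ∀ g ∈ D.steinbergRelsAB F, FreeGroup.lift f g = 1
  · rintro g (⟨r, t₁, t₂, hr, rfl⟩ | ⟨r, s, t, u, hr, hs', h1, h2, rfl⟩)
    · simp only [map_mul, map_inv, hX r hr]
      rw [(hy _).add]
      group
    · simp only [map_mul, map_inv, hX r hr, hX s hs']
      set r' : Fin D.nroots := ⟨r, hr⟩ with hr'
      set s' : Fin D.nroots := ⟨s, hs'⟩ with hs''
      have hne : s' ≠ r' := fun e => h1 (congrArg Fin.val e)
      have hne2 : r' ≠ s' := fun e => hne e.symm
      have hn2 : r'.1 ≠ D.neg s' := by
        intro e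
        apply h2
        show s = _
        rw [show r = D.neg s from e, hF.neg_neg hs']
      have hshape := hS r hr s hs'
      cases hce : ceOf D r s with
      | nil =>
        have hw : D.commTerms r s = [] := commTerms_nil hS (r := r') (s := s') hce
        have hc1 : (rd hF F).Csem r' s' := csem_of_nil hF hS h2 hne hce
        have hcm := y_comm p hs hc hT hy hc1 t u
        have e1 : FreeGroup.lift f (D.stWord (D.commWord F r s t u)) = 1 := by
          simp [ChevalleyDatum.commWord, hw, ChevalleyDatum.stWord]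
        rw [e1, inv_one, mul_one]
        have e3 : (y s' u)⁻¹ * (y r' t)⁻¹ * y s' u * y r' t = (y r' t * y s' u)⁻¹ * (y s' u * y r' t) := by group
        rw [e3, hcm.eq]
        simp
      | cons a L =>
        cases L with
        | nil =>
          obtain ⟨k, c⟩ := a
          have hw : D.commTerms r s = [(k, c, 1, 1)] := commTerms_single hS (r := r') (s := s') hce
          have hk : k < D.nroots :=
            (hF.commTerms_spec hr hs' h1 h2 (c := (k, c, 1, 1)) (by rw [hw]; simp)).1
          have hdec := dec_of_single (F := F) (κ := ⟨k, hk⟩) hF hS hne2 hn2 hce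
          have hcm := y_dec p hs hc hT hy hdec (-u) (-t)
          have e1 : FreeGroup.lift f (D.stWord (D.commWord F r s t u)) = y ⟨k, hk⟩ ((c : F) * (-t) * u) := by
            simp [ChevalleyDatum.commWord, hw, ChevalleyDatum.stWord, hX k hk]
          rw [e1]
          have e2 : y ⟨k, hk⟩ ((c : F) * (-t) * u) = ⁅y s' (-u), y r' (-t)⁆ := by
            rw [hcm]
            congr 1
            ring
          rw [e2, hneg, hneg]
          simp only [commutatorElement_def, inv_inv]
          group
        | cons b L =>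
          rw [hce] at hshape
          simp [shapeOK] at hshape

/-! ### The route through canonical lifts -/

include hs hc in
/-- The relators hold for canonical lifts, given witnesses for pairs of positive roots and Weyl words. -/
theorem rels_of_TL {Y : ℕ → F → Γ} (hY : TL hF p Y)
    (hW : ∀ k s, R.N ≤ k → k < s → s < D.nroots → TL.Wit hF p hs k s)
    (hTab : ∀ r < D.nroots, ∀ s < D.nroots, s ≠ r → s ≠ D.neg r → ∃ w : List ℕ, (∀ i ∈ w, i < D.rank) ∧
      R.N ≤ wAct X w r ∧ R.N ≤ wAct X w s ∧ ∀ c ∈ D.commTerms r s, R.N ≤ wAct X w c.1) :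
    ∀ g ∈ D.steinbergRelsAB F, FreeGroup.lift (fun q : Fin D.nroots × F => Y q.1 q.2) g = 1 := by
  classical
  have hN : R.N ≤ D.nroots := by
    have := hF.r.two
    omega
  have hI := hY.inj_all hs hc (fun k s h1 h2 h3 => Or.inl (hW k s h1 h2 h3)) (D.nroots - R.N) R.N (by omega) le_rfl
  let f : Fin D.nroots × F → Γ := fun q => Y q.1 q.2
  have hX : ∀ (r : ℕ) (hr : r < D.nroots) (t : F), FreeGroup.lift f (D.stX r t) = Y r t := by
    intro r hr t
    simp [ChevalleyDatum.stX, hr, f]
  show ∀ g ∈ D.steinbergRelsAB F, FreeGroup.lift f g = 1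
  rintro g (⟨r, t₁, t₂, hr, rfl⟩ | ⟨r, s, t, u, hr, hs', h1, h2, rfl⟩)
  · simp only [map_mul, map_inv, hX r hr]
    rw [hY.add r hr]
    group
  · have hw : FreeGroup.lift f (D.stWord (D.commWord F r s t u)) = TL.WW D Y r s t u := by
      unfold ChevalleyDatum.stWord TL.WW
      rw [map_list_prod, List.map_map]
      congr 1
      apply List.map_congr_left
      intro c hc'
      simp only [ChevalleyDatum.commWord, List.mem_map] at hc'
      obtain ⟨c', hc1, rfl⟩ := hc'
      exact hX _ (hF.commTerms_spec hr hs' h1 h2 hc1).1 _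
    simp only [map_mul, map_inv, hX r hr, hX s hs']
    rw [hw]
    have e := hY.comm_all hc hs hI hTab r hr s hs' h1 h2 t u
    have e3 : (Y s u)⁻¹ * (Y r t)⁻¹ * Y s u * Y r t = (Y r t * Y s u)⁻¹ * (Y s u * Y r t) := by group
    rw [e3, e]
    group

/-! ### The homomorphism -/

include hF in
/-- Lifts satisfying the relators give a homomorphism over the Chevalley group. -/
theorem exists_hom_of_rels {f : Fin D.nroots × F → Γ} (hm : ∀ q, p (f q) = (rd hF F).X q.1 q.2)
    (hrel : ∀ g ∈ D.steinbergRelsAB F, FreeGroup.lift f g = 1) :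
    ∃ φ : D.SteinbergCover F →* Γ, p.comp φ = thetaG hF := by
  refine ⟨PresentedGroup.toGroup hrel, ?_⟩
  apply PresentedGroup.ext
  intro q
  have h : PresentedGroup.of (rels := D.steinbergRelsAB F) q = D.scGen F q.1 q.2 := by
    unfold ChevalleyDatum.scGen ChevalleyDatum.stX
    rw [dif_pos q.1.2]
    rfl
  rw [MonoidHom.comp_apply, PresentedGroup.toGroup.of, hm]
  apply Subtype.ext
  rw [coe_thetaG, h, theta_y hF q.1.2]
  rfl

end Cfsg.Agent.Lib.ChevCov
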