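import Cfsg.Agent.Lib.ChevCov.Rels
import Cfsg.Agent.Lib.ChevCov.DualE
import Cfsg.Agent.Lib.ChevTorG2
import Cfsg.Agent.Lib.ChevTorB2
import Cfsg.Agent.Lib.ChevStB2
import Cfsg.Agent.Lib.ChevTorD4
import Cfsg.Agent.Lib.ChevTorF4
import Cfsg.Agent.Lib.ChevSLE6
import Cfsg.Agent.Lib.ChevSLE7
import Cfsg.Agent.Lib.ChevSLE8
import Cfsg.Agent.Lib.ChevPresAll

/-!
# The group presented by (R1), (R2) over a field with more than four elements is universal
-/

set_option autoImplicit false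
set_option linter.unusedSectionVars false
set_option linter.unusedVariables false

namespace Cfsg.Agent.Lib.ChevCov

open Cfsg Cfsg.Lie Matrix Cfsg.Agent.Lib.Chev Cfsg.Agent.Lib.ChevLift Cfsg.Agent.Lib.ChevLift.RD
  Cfsg.Agent.Lib.ChevLiftC Cfsg.Agent.Lib.ChevBL Cfsg.Agent.Lib.ChevStem Cfsg.Agent.Lib.ChevTorTab
  Cfsg.Agent.Lib.ChevTor Cfsg.Agent.Lib.StA Cfsg.Agent.Lib.ChevStRed
open Cfsg.Agent.Lib.ChevPres (NegOK negTerm negWord commWord_neg neg_ne_of WOK PresOK)
open scoped commutatorElement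

universe u v

/-! ### The group theory -/

/-- Two homomorphisms from a perfect group with equal images modulo a central subgroup agree. -/
theorem hom_eq_of_perfect {Δ A B : Type*} [Group Δ] [Group A] [Group B] (hperf : commutator Δ = ⊤) (α : A →* B)
    (hα : α.ker ≤ Subgroup.center A) (φ ψ : Δ →* A) (h : α.comp φ = α.comp ψ) : φ = ψ := by
  have key : ∀ x y : Δ, φ ⁅x, y⁆ = ψ ⁅x, y⁆ := by
    intro x y
    rw [map_commutatorElement, map_commutatorElement]
    apply comm_eq_of_lifts α hα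
    · exact DFunLike.congr_fun h x
    · exact DFunLike.congr_fun h y
  have h1 : (⊤ : Subgroup Δ) ≤ φ.eqLocus ψ := by
    rw [← hperf, commutator_eq_closure, Subgroup.closure_le]
    rintro _ ⟨x, y, rfl⟩
    exact key x y
  ext g
  exact h1 (Subgroup.mem_top g)

/-- Universality, from lifting through central extensions of the base. -/
theorem univ_of_lift {Δ : Type u} [Group Δ] {G G₁ : Type*} {E : Type v} [Group G] [Group G₁] [Group E] (θ : Δ →* G)
    (hs : Function.Surjective θ) (hc : θ.ker ≤ Subgroup.center Δ) (hperf : commutator Δ = ⊤)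
    (π₁ : E →* G₁) (hπ : Function.Surjective π₁) (hce : π₁.ker ≤ Subgroup.center E) (σ : Δ →* G₁)
    (H : ∀ (Γ : Type (max u v)) [Group Γ] (p : Γ →* G), Function.Surjective p → p.ker ≤ Subgroup.center Γ →
      ∃ φ : Δ →* Γ, p.comp φ = θ) : ∃! τ : Δ →* E, π₁.comp τ = σ := by
  let P : Subgroup (Δ × E) := MonoidHom.eqLocus (σ.comp (MonoidHom.fst Δ E)) (π₁.comp (MonoidHom.snd Δ E))
  have hPmem : ∀ w : P, σ w.1.1 = π₁ w.1.2 := fun w => w.2
  let q : P →* Δ := (MonoidHom.fst Δ E).comp P.subtype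
  let r : P →* E := (MonoidHom.snd Δ E).comp P.subtype
  have hqs : Function.Surjective q := by
    intro x
    obtain ⟨e, he⟩ := hπ (σ x)
    exact ⟨⟨(x, e), he.symm⟩, rfl⟩
  have hqk : q.ker ≤ Subgroup.center P := by
    intro z hz
    have hz1 : z.1.1 = 1 := hz
    have hz2 : z.1.2 ∈ Subgroup.center E := by
      apply hce
      rw [MonoidHom.mem_ker, ← hPmem z, hz1, map_one]
    rw [Subgroup.mem_center_iff]
    intro w
    apply Subtype.ext
    apply Prod.ext
    · show w.1.1 * z.1.1 = z.1.1 * w.1.1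
      rw [hz1, mul_one, one_mul]
    · show w.1.2 * z.1.2 = z.1.2 * w.1.2
      exact Subgroup.mem_center_iff.mp hz2 _
  let Γ₀ : Subgroup P := commutator P
  let q₀ : Γ₀ →* Δ := q.comp Γ₀.subtype
  have hq₀s : Function.Surjective q₀ := by
    intro x
    have h0 : Γ₀.map q = commutator Δ := by
      show (commutator P).map q = _
      rw [_root_.commutator_def, _root_.commutator_def, Subgroup.map_commutator, Subgroup.map_top_of_surjective _ hqs]
    have h1 : x ∈ Γ₀.map q := by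
      rw [h0, hperf]
      exact Subgroup.mem_top x
    obtain ⟨w, hw, e⟩ := h1
    exact ⟨⟨w, hw⟩, e⟩
  have hq₀k : q₀.ker ≤ Subgroup.center Γ₀ := by
    intro z hz
    have h1 : (z : P) ∈ q.ker := hz
    have h2 := hqk h1
    rw [Subgroup.mem_center_iff] at h2 ⊢
    intro w
    apply Subtype.ext
    exact h2 w.1
  have hΓ₀ : commutator Γ₀ = ⊤ := by
    have h1 : Γ₀ ≤ (commutator Γ₀).map Γ₀.subtype := by
      show commutator P ≤ _
      rw [commutator_eq_closure, Subgroup.closure_le]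
      rintro _ ⟨x, y, rfl⟩
      obtain ⟨a, ha⟩ := hq₀s (q x)
      obtain ⟨b, hb⟩ := hq₀s (q y)
      have e : ⁅x, y⁆ = ⁅(a : P), (b : P)⁆ := comm_eq_of_lifts q hqk ha.symm hb.symm
      rw [e]
      refine ⟨⁅a, b⁆, ?_, rfl⟩
      exact Subgroup.commutator_mem_commutator (Subgroup.mem_top _) (Subgroup.mem_top _)
    rw [eq_top_iff]
    intro w _
    obtain ⟨w', hw', e⟩ := h1 w.2
    have : w' = w := Subtype.ext e
    rw [← this]
    exact hw'
  have hstem : IsStemExtension q₀ := ⟨hq₀s, hq₀k, by rw [hΓ₀]; exact le_top⟩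
  have hcomp := stem_comp q₀ θ hstem hs hc hperf
  obtain ⟨φ, hφ⟩ := H Γ₀ (θ.comp q₀) hcomp.1 hcomp.2.1
  have hid : q₀.comp φ = MonoidHom.id Δ := by
    apply hom_eq_of_perfect hperf θ hc
    rw [← MonoidHom.comp_assoc, hφ, MonoidHom.comp_id]
  refine ⟨r.comp (Γ₀.subtype.comp φ), ?_, ?_⟩
  · ext x
    have h1 : q₀ (φ x) = x := DFunLike.congr_fun hid x
    have h2 : ((φ x : Γ₀) : P).1.1 = x := h1
    have h3 := hPmem ((φ x : Γ₀) : P)
    rw [h2] at h3
    exact h3.symm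
  · intro τ hτ
    apply hom_eq_of_perfect hperf π₁ hce
    rw [hτ]
    ext x
    have h1 : q₀ (φ x) = x := DFunLike.congr_fun hid x
    have h2 : ((φ x : Γ₀) : P).1.1 = x := h1
    have h3 := hPmem ((φ x : Γ₀) : P)
    rw [h2] at h3
    exact h3

/-! ### The presented group is perfect -/

section Perfect

variable {T : Tabs} {X : Extra} {R : RootTab} {D : ChevalleyDatum} (hF : Full T X R D) (hP : PresOK X D)
variable {K : Type*} [Field K]

include hP in
/-- Products of the `h̄_i` with exponents from a vector. -/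
theorem exists_act_vec (v : List ℤ) (l : Kˣ) : ∀ n, n ≤ D.rank → ∃ (g : D.SteinbergCover K) (u : Fin D.nroots → Kˣ),
    RootActB hF g 1 u ∧ ∀ s : Fin D.nroots, u s = l ^ sumZ n (fun i => nthZ v i * D.cartan i s) := by
  intro n
  induction n with
  | zero =>
    intro _
    exact ⟨1, 1, rootActB_one hF, fun s => by simp⟩
  | succ n ih =>
    intro hn
    obtain ⟨g, u, hg, hu⟩ := ih (by omega)
    have h := (rootActB_hb hF hP (i := n) (by omega) (l ^ nthZ v n)).mul hg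
    rw [one_mul] at h
    refine ⟨_, _, h, ?_⟩
    intro s
    rw [sumZ_succ, _root_.zpow_add, _root_.zpow_mul, hu]
    rfl

include hF hP in
theorem scGen_mem_commutator {κ : Fin D.nroots} {v : List ℤ} {d : ℕ} (h : dotC D v κ = d)
    (hd : ∃ l : K, l ≠ 0 ∧ l ^ d ≠ 1) (t : K) : D.scGen K κ t ∈ commutator (D.SteinbergCover K) := by
  obtain ⟨l, hl, hl2⟩ := hd
  obtain ⟨g, u, hg, hu⟩ := exists_act_vec hF hP v (Units.mk0 l hl) D.rank le_rfl
  have hχ : ((u κ : Kˣ) : K) = l ^ d := by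
    rw [hu κ]
    have e : sumZ D.rank (fun i => nthZ v i * D.cartan i κ) = (d : ℤ) := h
    rw [e, zpow_natCast]
    simp
  set c : K := ((u κ : Kˣ) : K) with hc
  have hc1 : c - 1 ≠ 0 := by
    rw [hχ]
    exact sub_ne_zero.mpr hl2
  set a : K := (c - 1)⁻¹ * t with ha
  have e1 := hg.conj κ a
  have e2 : ⁅g, D.scGen K κ a⁆ = D.scGen K κ t := by
    rw [commutatorElement_def, e1]
    show D.scGen K κ (c * a) * (D.scGen K κ a)⁻¹ = _
    rw [yb_inv, yb_add]
    congr 1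
    rw [ha]
    field_simp
    ring
  rw [← e2]
  exact Subgroup.commutator_mem_commutator (Subgroup.mem_top _) (Subgroup.mem_top _)

include hF hP in
theorem perfect_of_vecs (hv : ∀ κ : Fin D.nroots, ∃ (v : List ℤ) (d : ℕ), dotC D v κ = d ∧ ∃ l : K, l ≠ 0 ∧ l ^ d ≠ 1) :
    commutator (D.SteinbergCover K) = ⊤ := by
  rw [eq_top_iff, ← PresentedGroup.closure_range_of, Subgroup.closure_le]
  rintro _ ⟨⟨κ, t⟩, rfl⟩
  have h0 : PresentedGroup.of (rels := D.steinbergRelsAB K) ((κ, t) : Fin D.nroots × K) = D.scGen K κ t := by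
    unfold ChevalleyDatum.scGen ChevalleyDatum.stX
    rw [dif_pos κ.2]
    rfl
  show PresentedGroup.of (rels := D.steinbergRelsAB K) ((κ, t) : Fin D.nroots × K) ∈ _
  rw [h0]
  obtain ⟨v, d, h1, h2⟩ := hv κ
  exact scGen_mem_commutator hF hP h1 h2 t

end Perfect

/-! ### Type by type -/

section Types

variable {F : Type u} [Field F] {Γ : Type v} [Group Γ]

lemma pow_ne_of_mem (hK : ∃ s : Finset F, 4 < s.card) {ds : List ℕ} (h : ∀ d ∈ ds, 0 < d ∧ d ≤ 3) :
    ∀ d ∈ ds, ∃ l : F, l ≠ 0 ∧ l ^ d ≠ 1 := fun d hd => exists_pow_ne_one_gen hK (h d hd).1 (h d hd).2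

theorem lift_G2 (hK : ∃ s : Finset F, 4 < s.card) (hF : Full _ _ _ chevG2 := ⟨RelG2.checks, RootG2.checks⟩)
    (p : Γ →* ↥(chevG2.group F)) (hs : Function.Surjective p) (hc : p.ker ≤ Subgroup.center Γ) :
    ∃ φ : chevG2.SteinbergCover F →* Γ, p.comp φ = thetaG hF := by
  have hA : ∀ (κ : Fin chevG2.nroots) (a b : F), BB p hs ((rd hF F).X κ a) ((rd hF F).X κ b) = 1 :=
    fun κ a b => BB_self_gen hF p hs hc hK (dual_of_ok ChevTorG2.dual_ok κ) a b
  have hχ : ∀ κ : Fin chevG2.nroots, ∃ c : Fin chevG2.rank → Fˣ, chiT chevG2 c κ ≠ 1 := fun κ =>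
    hchi_gen (v := _) (d := 1) (dual_of_ok ChevTorG2.dual_ok κ) (exists_pow_ne_one_gen hK (by norm_num) (by norm_num))
  obtain ⟨Y, hY⟩ := exists_TL hF p hs hc hA hχ
  exact exists_hom_of_rels hF p (f := fun q => Y q.1 q.2) (fun q => hY.map q.1 q.1.2 q.2)
    (rels_of_TL hF p hs hc hY (wit_of_ok_gen hF p hs ChevTorG2.wit_ok (pow_ne_of_mem hK (by simp))) (hTab_of_ok ChevTorG2.tab_ok))

theorem lift_F4 (hK : ∃ s : Finset F, 4 < s.card) (hF : Full _ _ _ chevF4 := ⟨RelF4.checks, RootF4.checks⟩)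
    (p : Γ →* ↥(chevF4.group F)) (hs : Function.Surjective p) (hc : p.ker ≤ Subgroup.center Γ) :
    ∃ φ : chevF4.SteinbergCover F →* Γ, p.comp φ = thetaG hF := by
  have hA : ∀ (κ : Fin chevF4.nroots) (a b : F), BB p hs ((rd hF F).X κ a) ((rd hF F).X κ b) = 1 :=
    fun κ a b => hA_of_ok hF p hs hc ChevTorF4.self_ok κ a b
  have hχ : ∀ κ : Fin chevF4.nroots, ∃ c : Fin chevF4.rank → Fˣ, chiT chevF4 c κ ≠ 1 := fun κ =>
    hchi_gen (v := _) (d := 1) (dual_of_ok ChevTorF4.dual_ok κ) (exists_pow_ne_one_gen hK (by norm_num) (by norm_num))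
  obtain ⟨Y, hY⟩ := exists_TL hF p hs hc hA hχ
  exact exists_hom_of_rels hF p (f := fun q => Y q.1 q.2) (fun q => hY.map q.1 q.1.2 q.2)
    (rels_of_TL hF p hs hc hY (wit_of_ok_gen hF p hs ChevTorF4.wit_ok (pow_ne_of_mem hK (by simp))) (hTab_of_ok ChevTorF4.tab_ok))

theorem lift_D4 (hK : ∃ s : Finset F, 4 < s.card) (hF : Full _ _ _ chevD4 := ⟨RelD4.checks, RootD4.checks⟩)
    (p : Γ →* ↥(chevD4.group F)) (hs : Function.Surjective p) (hc : p.ker ≤ Subgroup.center Γ) :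
    ∃ φ : chevD4.SteinbergCover F →* Γ, p.comp φ = thetaG hF := by
  have hA : ∀ (κ : Fin chevD4.nroots) (a b : F), BB p hs ((rd hF F).X κ a) ((rd hF F).X κ b) = 1 :=
    fun κ a b => hA_of_ok hF p hs hc ChevTorD4.self_ok κ a b
  have hχ : ∀ κ : Fin chevD4.nroots, ∃ c : Fin chevD4.rank → Fˣ, chiT chevD4 c κ ≠ 1 := fun κ =>
    hchi_gen (v := _) (d := 1) (dual_of_ok ChevTorD4.dual_ok κ) (exists_pow_ne_one_gen hK (by norm_num) (by norm_num))
  obtain ⟨Y, hY⟩ := exists_TL hF p hs hc hA hχ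
  exact exists_hom_of_rels hF p (f := fun q => Y q.1 q.2) (fun q => hY.map q.1 q.1.2 q.2)
    (rels_of_TL hF p hs hc hY (wit_of_ok_gen hF p hs ChevTorD4.wit_ok (pow_ne_of_mem hK (by simp))) (hTab_of_ok ChevTorD4.tab_ok))

theorem lift_SL {T : Tabs} {X : Extra} {R : RootTab} {D : ChevalleyDatum} (hF : Full T X R D) (d : SLData D X)
    (p : Γ →* ↥(D.group F)) (hs : Function.Surjective p) (hc : p.ker ≤ Subgroup.center Γ) :
    ∃ φ : D.SteinbergCover F →* Γ, p.comp φ = thetaG hF := by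
  obtain ⟨hT, y, hy⟩ := exists_y hF p hs hc d
  exact exists_hom_of_rels hF p (f := fun q => y q.1 q.2) (fun q => (hy q.1).map q.2)
    (st_rels_AB hF p hs hc d.shape hT hy)

/-- The form on a root group in type B₂. -/
theorem hA_B2_gen (hK : ∃ s : Finset F, 4 < s.card) {T : Tabs} {X : Extra} {R : RootTab} (hF : Full T X R chevB2)
    (p : Γ →* ↥(chevB2.group F)) (hs : Function.Surjective p) (hc : p.ker ≤ Subgroup.center Γ)
    (κ : Fin chevB2.nroots) (a b : F) : BB p hs ((rd hF F).X κ a) ((rd hF F).X κ b) = 1 := by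
  have h1 : ((1 : ℤ) : F) ≠ 0 := by simp
  have h2 : ((-1 : ℤ) : F) ≠ 0 := by simp
  have h3 : ∃ u : F, u ≠ 0 ∧ u ≠ 1 := by
    obtain ⟨l, hl, hl2⟩ := exists_pow_ne_one_gen hK (d := 1) (by norm_num) (by norm_num)
    exact ⟨l, hl, by simpa using hl2⟩
  have hlong : ∀ (κ w r s : Fin chevB2.nroots) (c1 c2 : ℤ), s.1 ≠ r → s.1 ≠ chevB2.neg r →
      commTermsOf (ceOf chevB2) r s = [(w.1, c1, 1, 1), (κ.1, c2, 1, 2)] → (c1 : F) ≠ 0 → (c2 : F) ≠ 0 →
      csChk chevB2 κ r = true → csChk chevB2 κ s = true → csChk chevB2 κ w = true →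
      BB p hs ((rd hF F).X κ a) ((rd hF F).X κ b) = 1 := by
    intro κ w r s c1 c2 e1 e2 e3 e4 e5 e6 e7 e8
    exact BB_self_long hF p hs hc h3 e1 e2 (ChevStB2.ct e3) e4 e5 (csem_of_chk hF e6) (csem_of_chk hF e7) (csem_of_chk hF e8) a b
  have hshort : ∀ (κ : Fin chevB2.nroots) (v : List ℤ), dotC chevB2 v κ = 1 →
      BB p hs ((rd hF F).X κ a) ((rd hF F).X κ b) = 1 :=
    fun κ v e => BB_self_gen hF p hs hc hK e a b
  obtain ⟨κ, hκ⟩ := κ
  have hκ' : κ < 8 := hκ
  interval_cases κ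
  · exact hlong (ChevStB2.rt 0) (ChevStB2.rt 1) (ChevStB2.rt 3) (ChevStB2.rt 2) (-1) (-1) (by decide) (by decide +kernel) (by decide +kernel) h2 h2
      (by decide +kernel) (by decide +kernel) (by decide +kernel)
  · exact hshort (ChevStB2.rt 1) [0, -1] (by decide +kernel)
  · exact hshort (ChevStB2.rt 2) [0, 1] (by decide +kernel)
  · exact hlong (ChevStB2.rt 3) (ChevStB2.rt 1) (ChevStB2.rt 0) (ChevStB2.rt 5) 1 (-1) (by decide) (by decide +kernel) (by decide +kernel) h1 h2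
      (by decide +kernel) (by decide +kernel) (by decide +kernel)
  · exact hlong (ChevStB2.rt 4) (ChevStB2.rt 2) (ChevStB2.rt 0) (ChevStB2.rt 6) (-1) 1 (by decide) (by decide +kernel) (by decide +kernel) h2 h1
      (by decide +kernel) (by decide +kernel) (by decide +kernel)
  · exact hshort (ChevStB2.rt 5) [0, -1] (by decide +kernel)
  · exact hshort (ChevStB2.rt 6) [0, 1] (by decide +kernel)
  · exact hlong (ChevStB2.rt 7) (ChevStB2.rt 5) (ChevStB2.rt 3) (ChevStB2.rt 6) 1 1 (by decide) (by decide +kernel) (by decide +kernel) h1 h1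
      (by decide +kernel) (by decide +kernel) (by decide +kernel)

/-- The vectors for type B₂. -/
lemma vec_B2' : ∀ κ < 8, ∃ (v : List ℤ) (d : ℕ), dotC chevB2 v κ = d ∧ 0 < d ∧ d ≤ 3 := by
  intro κ hκ'
  interval_cases κ
  · exact ⟨[-1, 0], 2, by decide +kernel, by norm_num, by norm_num⟩
  · exact ⟨[0, -1], 1, by decide +kernel, by norm_num, by norm_num⟩
  · exact ⟨[0, 1], 1, by decide +kernel, by norm_num, by norm_num⟩
  · exact ⟨[0, -1], 2, by decide +kernel, by norm_num, by norm_num⟩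
  · exact ⟨[0, 1], 2, by decide +kernel, by norm_num, by norm_num⟩
  · exact ⟨[0, -1], 1, by decide +kernel, by norm_num, by norm_num⟩
  · exact ⟨[0, 1], 1, by decide +kernel, by norm_num, by norm_num⟩
  · exact ⟨[1, 0], 2, by decide +kernel, by norm_num, by norm_num⟩

lemma vec_B2 (κ : Fin chevB2.nroots) : ∃ (v : List ℤ) (d : ℕ), dotC chevB2 v κ = d ∧ 0 < d ∧ d ≤ 3 :=
  vec_B2' κ.1 κ.2

theorem lift_B2 (hK : ∃ s : Finset F, 4 < s.card) (hF : Full _ _ _ chevB2 := ⟨RelB2.checks, RootB2.checks⟩)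
    (p : Γ →* ↥(chevB2.group F)) (hs : Function.Surjective p) (hc : p.ker ≤ Subgroup.center Γ) :
    ∃ φ : chevB2.SteinbergCover F →* Γ, p.comp φ = thetaG hF := by
  have hχ : ∀ κ : Fin chevB2.nroots, ∃ c : Fin chevB2.rank → Fˣ, chiT chevB2 c κ ≠ 1 := fun κ => by
    obtain ⟨v, d, h1, h2, h3⟩ := vec_B2 κ
    exact hchi_gen h1 (exists_pow_ne_one_gen hK h2 h3)
  obtain ⟨Y, hY⟩ := exists_TL hF p hs hc (hA_B2_gen hK hF p hs hc) hχ
  exact exists_hom_of_rels hF p (f := fun q => Y q.1 q.2) (fun q => hY.map q.1 q.1.2 q.2)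
    (rels_of_TL hF p hs hc hY (wit_of_ok_gen hF p hs ChevTorB2.wit_ok (pow_ne_of_mem hK (by simp))) (hTab_of_ok ChevTorB2.tab_ok))

end Types

end Cfsg.Agent.Lib.ChevCov
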